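import Mathlib
import Cfsg.Agent.Lib.Helper72.P2NoSubStmt
import Cfsg.Agent.Lib.Helper95.HupP5

set_option autoImplicit false

/-! Piece NF of S4707: no group of order `r (2r - 1)`, `r ≥ 3`, has a commutative Sylow
2-subgroup of order `r` containing the centralizers of its non-trivial elements. -/

namespace Cfsg.Agent.Lib.Helper89.P2NF

open Subgroup

universe u

/-- the Sylow 2-subgroup is self-normalizing -/
theorem normalizer_eq (H : Type u) [Group H] [Finite H] (r : ℕ) (S : Sylow 2 H)
    (hS : Nat.card (S : Subgroup H) = r) (hH : Nat.card H = r * (2 * r - 1)) (h3 : 3 ≤ r)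
    (hcent : ∀ s ∈ (S : Subgroup H), s ≠ 1 → ∀ x : H, s * x = x * s → x ∈ (S : Subgroup H)) :
    normalizer ((S : Subgroup H) : Set H) = (S : Subgroup H) := by
  set Q := normalizer ((S : Subgroup H) : Set H) with hQ
  have hSQ : (S : Subgroup H) ≤ Q := le_normalizer
  have hcardpos : Nat.card Q ≠ 0 := Nat.card_pos.ne'
  have key : ∀ {q : ℕ}, q.Prime → q ∣ Nat.card Q → q = 2 := by
    intro q hq hqd
    by_contra hq2
    have : Fact q.Prime := ⟨hq⟩
    obtain ⟨y, hy⟩ := exists_prime_orderOf_dvd_card' q hqd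
    have hN : ((S : Subgroup H).subgroupOf Q).Normal := by
      rw [hQ]
      infer_instance
    have hmod := Cfsg.Agent.Lib.Helper95.HupP5.card_modEq_card_centralizer
      ((S : Subgroup H).subgroupOf Q) y q hq (by rw [← hy]; exact pow_orderOf_eq_one y)
    have hbot : ((S : Subgroup H).subgroupOf Q ⊓ centralizer {y} : Subgroup Q) = ⊥ := by
      rw [eq_bot_iff]
      rintro t ⟨ht1, ht2⟩
      rw [Subgroup.mem_bot]
      by_contra hne
      have htS : (t : H) ∈ (S : Subgroup H) := Subgroup.mem_subgroupOf.1 ht1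
      have hne' : (t : H) ≠ 1 := fun h => hne (Subtype.ext h)
      have hcomm : (t : H) * (y : H) = (y : H) * (t : H) := by
        have h := (Subgroup.mem_centralizer_iff.1 ht2) y rfl
        exact (congrArg Subtype.val h).symm
      have hyS : (y : H) ∈ (S : Subgroup H) := hcent t htS hne' y hcomm
      have h1 : orderOf (y : H) = q := by
        rw [Subgroup.orderOf_coe]
        exact hy
      have h2 : q ∣ Nat.card (S : Subgroup H) := by
        have h := orderOf_dvd_natCard (⟨(y : H), hyS⟩ : (S : Subgroup H))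
        rwa [Subgroup.orderOf_mk, h1] at h
      obtain ⟨k, hk⟩ := IsPGroup.iff_card.1 S.2
      rw [hk] at h2
      exact hq2 ((Nat.prime_dvd_prime_iff_eq hq Nat.prime_two).1 (hq.dvd_of_dvd_pow h2))
    rw [hbot] at hmod
    have hcN : Nat.card ((S : Subgroup H).subgroupOf Q) = r := by
      rw [← hS]
      exact Nat.card_congr (Subgroup.subgroupOfEquivOfLe hSQ).toEquiv
    rw [hcN, Subgroup.card_bot] at hmod
    have hr1 : 1 ≤ r := by omega
    have hd1 : q ∣ r - 1 := (Nat.modEq_iff_dvd' hr1).1 hmod.symm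
    have hqH : q ∣ r * (2 * r - 1) := by
      rw [← hH]
      exact hqd.trans (Subgroup.card_subgroup_dvd_card Q)
    have hone : q ∣ 1 := by
      rcases (Nat.Prime.dvd_mul hq).1 hqH with h | h
      · have h' := Nat.dvd_sub h hd1
        have e : r - (r - 1) = 1 := by omega
        rwa [e] at h'
      · have h' := Nat.dvd_sub h (Dvd.dvd.mul_left hd1 2)
        have e : 2 * r - 1 - 2 * (r - 1) = 1 := by omega
        rwa [e] at h'
    exact hq.one_lt.ne' (Nat.dvd_one.1 hone)
  have hpow := Nat.eq_prime_pow_of_unique_prime_dvd hcardpos key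
  have hQ2 : IsPGroup 2 Q := IsPGroup.of_card hpow
  exact S.3 hQ2 hSQ

theorem main : Cfsg.Agent.Lib.Helper72.P2NoSubStmt.NF.{u} := by
  intro H _ _ r h3 S hS hH hab hcent
  have hN := normalizer_eq H r S hS hH h3 hcent
  have hP : normalizer ((S : Subgroup H) : Set H) ≤ centralizer ((S : Subgroup H) : Set H) := by
    rw [hN]
    intro x hx
    rw [Subgroup.mem_centralizer_iff]
    intro y hy
    exact hab y hy x hx
  have hc : IsComplement' (MonoidHom.transferSylow S hP).ker (S : Subgroup H) :=
    MonoidHom.ker_transferSylow_isComplement' S hP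
  have hcard : Nat.card (MonoidHom.transferSylow S hP).ker * Nat.card (S : Subgroup H)
      = Nat.card H := hc.card_mul_card
  have hr : 0 < r := by omega
  have hKcard : Nat.card (MonoidHom.transferSylow S hP).ker = 2 * r - 1 := by
    rw [hS, hH] at hcard
    exact Nat.eq_of_mul_eq_mul_right hr (by rw [hcard, mul_comm])
  have hdisj : (MonoidHom.transferSylow S hP).ker ⊓ (S : Subgroup H) = ⊥ := hc.disjoint.eq_bot
  have hfree : ∀ y ∈ (S : Subgroup H), y ≠ 1 → ∀ t ∈ (MonoidHom.transferSylow S hP).ker,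
      y * t = t * y → t ∈ (⊥ : Subgroup H) := by
    intro y hy hne t ht hyt
    have htS := hcent y hy hne t hyt
    rw [← hdisj]
    exact ⟨ht, htS⟩
  have hdvd := Cfsg.Agent.Lib.Helper95.HupP5.card_dvd_sub_of_free
    (MonoidHom.transferSylow S hP).ker ⊥ (S : Subgroup H) bot_le hfree
  rw [hS, hKcard, Subgroup.card_bot] at hdvd
  obtain ⟨c, hc'⟩ := hdvd
  have hc2 : c < 2 := by
    by_contra hcon
    push Not at hcon
    have h1 : r * 2 ≤ r * c := Nat.mul_le_mul_left r hcon
    omega
  interval_cases c <;> omega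

end Cfsg.Agent.Lib.Helper89.P2NF
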