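import Mathlib
import Cfsg.Agent.Lib.Helper16.P2pStmt

set_option autoImplicit false

/-! Piece PRE4 of S4707: the group is perfect. -/

namespace Cfsg.Agent.Lib.Helper89.P2PRE4

open Subgroup
open scoped commutatorElement

universe u

theorem main : Cfsg.Agent.Lib.Helper16.P2pStmt.Pre4.{u} := by
  intro G _ _ p _ hp2 P hPc hNc hPn hmin
  by_contra hD
  have hp : p.Prime := Fact.out
  have hDn : (_root_.commutator G).Normal := inferInstance
  generalize hDdef : _root_.commutator G = D at hD hDn
  have hDbot : D ≠ ⊥ := by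
    intro h
    apply hPn
    have hcomm : ∀ a b : G, a * b = b * a := by
      intro a b
      have h1 : ⁅a, b⁆ ∈ D := by
        rw [← hDdef, _root_.commutator_def]
        exact Subgroup.commutator_mem_commutator (Subgroup.mem_top a) (Subgroup.mem_top b)
      rw [h, Subgroup.mem_bot] at h1
      exact commutatorElement_eq_one_iff_mul_comm.1 h1
    constructor
    intro n hn g
    have e : g * n * g⁻¹ = n := by
      rw [hcomm g n, mul_inv_cancel_right]
    rw [e]
    exact hn
  have hPD : (P : Subgroup G) ≤ D := hmin D hDn hDbot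
  have hfr : normalizer ((P : Subgroup G) : Set G) ⊔ D = ⊤ := Sylow.normalizer_sup_eq_top' P hPD
  generalize hNdef : normalizer ((P : Subgroup G) : Set G) = N at hfr hNc
  have hPN : (P : Subgroup G) ≤ N := by
    rw [← hNdef]
    exact le_normalizer
  have hPND : (P : Subgroup G) ≤ N ⊓ D := le_inf hPN hPD
  have hne : N ⊓ D ≠ N := by
    intro h
    have hND : N ≤ D := by
      rw [← h]
      exact inf_le_right
    apply hD
    rw [← hfr]
    exact (sup_eq_right.2 hND).symm
  have hcardND : Nat.card (N ⊓ D : Subgroup G) = p := by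
    have h1 : Nat.card (N ⊓ D : Subgroup G) ∣ 2 * p := by
      rw [← hNc]
      exact Subgroup.card_dvd_of_le inf_le_left
    have h2 : p ∣ Nat.card (N ⊓ D : Subgroup G) := by
      rw [← hPc]
      exact Subgroup.card_dvd_of_le hPND
    have h3 : Nat.card (N ⊓ D : Subgroup G) ≠ 2 * p := by
      intro h
      apply hne
      exact Subgroup.eq_of_le_of_card_ge inf_le_left (by rw [h, hNc])
    obtain ⟨j, hj⟩ := h2
    rw [hj] at h1 h3 ⊢
    have hj2 : j ∣ 2 := by
      have h4 : p * j ∣ p * 2 := by rwa [mul_comm p 2]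
      exact Nat.dvd_of_mul_dvd_mul_left hp.pos h4
    have hj12 : j = 1 ∨ j = 2 := by
      have hle := Nat.le_of_dvd (by norm_num) hj2
      have hpos : 0 < j := Nat.pos_of_dvd_of_pos hj2 (by norm_num)
      omega
    rcases hj12 with rfl | rfl
    · rw [mul_one]
    · exact absurd (mul_comm p 2) h3
  have hPeq : (P : Subgroup G) = N ⊓ D :=
    Subgroup.eq_of_le_of_card_ge hPND (by rw [hcardND, hPc])
  have hPcomm : ∀ a ∈ (P : Subgroup G), ∀ b ∈ (P : Subgroup G), a * b = b * a := by
    intro a ha b hb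
    have hcyc : IsCyclic (P : Subgroup G) := isCyclic_of_prime_card hPc
    have h := (IsCyclic.commGroup (α := (P : Subgroup G))).mul_comm ⟨a, ha⟩ ⟨b, hb⟩
    exact congrArg Subtype.val h
  have hP1mem : ∀ x : D, x ∈ ((P.subtype hPD : Sylow p D) : Subgroup D) ↔
      (x : G) ∈ (P : Subgroup G) := by
    intro x
    rw [Sylow.coe_subtype, Subgroup.mem_subgroupOf]
  have hP1card : Nat.card ((P.subtype hPD : Sylow p D) : Subgroup D) = p := by
    rw [Sylow.coe_subtype]
    exact (Nat.card_congr (Subgroup.subgroupOfEquivOfLe hPD).toEquiv).trans hPc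
  generalize P.subtype hPD = P1 at hP1mem hP1card
  have hNC : normalizer ((P1 : Subgroup D) : Set D) ≤ centralizer ((P1 : Subgroup D) : Set D) := by
    intro x hx
    have hxN : (x : G) ∈ N := by
      rw [← hNdef, Subgroup.mem_normalizer_iff]
      intro g
      constructor
      · intro hg
        have hgD : g ∈ D := hPD hg
        have h := (Subgroup.mem_normalizer_iff.1 hx ⟨g, hgD⟩).1 ((hP1mem _).2 hg)
        exact (hP1mem _).1 h
      · intro hg
        have hgD : g ∈ D := by
          have h1 : (x : G) * g * (x : G)⁻¹ ∈ D := hPD hg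
          have h2 := D.mul_mem (D.mul_mem (D.inv_mem x.2) h1) x.2
          have e : (x : G)⁻¹ * ((x : G) * g * (x : G)⁻¹) * (x : G) = g := by group
          rwa [e] at h2
        have h := (Subgroup.mem_normalizer_iff.1 hx ⟨g, hgD⟩).2 ((hP1mem _).2 hg)
        exact (hP1mem _).1 h
    have hxP : (x : G) ∈ (P : Subgroup G) := by
      rw [hPeq]
      exact ⟨hxN, x.2⟩
    rw [Subgroup.mem_centralizer_iff]
    intro y hy
    apply Subtype.ext
    exact hPcomm _ ((hP1mem y).1 hy) _ hxP
  have hc := MonoidHom.ker_transferSylow_isComplement' P1 hNC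
  have hnd := MonoidHom.not_dvd_card_ker_transferSylow P1 hNC
  have hK1n : (MonoidHom.transferSylow P1 hNC).ker.Normal := inferInstance
  generalize (MonoidHom.transferSylow P1 hNC).ker = K1 at hc hnd hK1n
  have hcard1 : Nat.card K1 * Nat.card (P1 : Subgroup D) = Nat.card D := hc.card_mul_card
  have hidx : K1.index = p := by
    have h := Subgroup.card_mul_index K1
    rw [← hcard1, hP1card] at h
    exact Nat.eq_of_mul_eq_mul_left Nat.card_pos h
  have hKK1 : Nat.card (K1.map D.subtype) = Nat.card K1 :=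
    Nat.card_congr (K1.equivMapOfInjective D.subtype D.subtype_injective).toEquiv.symm
  have hKn : (K1.map D.subtype).Normal := by
    constructor
    rintro _ ⟨k, hk, rfl⟩ g
    have hgD : g * (k : G) * g⁻¹ ∈ D := hDn.conj_mem _ k.2 g
    refine ⟨⟨g * (k : G) * g⁻¹, hgD⟩, ?_, rfl⟩
    have hord : orderOf (⟨g * (k : G) * g⁻¹, hgD⟩ : D) = orderOf k := by
      rw [← Subgroup.orderOf_coe, ← Subgroup.orderOf_coe k]
      exact (MulAut.conj g).orderOf_eq (k : G)
    have h1 : orderOf (QuotientGroup.mk' K1 (⟨g * (k : G) * g⁻¹, hgD⟩ : D)) ∣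
        orderOf (⟨g * (k : G) * g⁻¹, hgD⟩ : D) := orderOf_map_dvd (QuotientGroup.mk' K1) _
    have h2 : orderOf k ∣ Nat.card K1 := by
      have h := orderOf_dvd_natCard (⟨k, hk⟩ : K1)
      rwa [Subgroup.orderOf_mk] at h
    have h3 : orderOf (QuotientGroup.mk' K1 (⟨g * (k : G) * g⁻¹, hgD⟩ : D)) ∣ p := by
      have h := orderOf_dvd_natCard (QuotientGroup.mk' K1 (⟨g * (k : G) * g⁻¹, hgD⟩ : D))
      rwa [← Subgroup.index_eq_card, hidx] at h
    have hcop : Nat.gcd (Nat.card K1) p = 1 :=
      Nat.Coprime.symm ((Nat.Prime.coprime_iff_not_dvd hp).2 hnd)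
    have h4 : orderOf (QuotientGroup.mk' K1 (⟨g * (k : G) * g⁻¹, hgD⟩ : D)) ∣ 1 := by
      rw [← hcop]
      exact Nat.dvd_gcd (h1.trans (hord ▸ h2)) h3
    have h5 : QuotientGroup.mk' K1 (⟨g * (k : G) * g⁻¹, hgD⟩ : D) = 1 :=
      orderOf_eq_one_iff.1 (Nat.dvd_one.1 h4)
    exact (QuotientGroup.eq_one_iff _).1 h5
  by_cases hKbot : K1.map D.subtype = ⊥
  · have hK1bot : Nat.card K1 = 1 := by
      rw [← hKK1, hKbot, Subgroup.card_bot]
    have hDcard : Nat.card D = p := by
      rw [← hcard1, hK1bot, hP1card, one_mul]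
    have hPD' : (P : Subgroup G) = D :=
      Subgroup.eq_of_le_of_card_ge hPD (by rw [hDcard, hPc])
    apply hPn
    rw [hPD']
    exact hDn
  · have hPK : (P : Subgroup G) ≤ K1.map D.subtype := hmin _ hKn hKbot
    have h : p ∣ Nat.card (K1.map D.subtype) := by
      rw [← hPc]
      exact Subgroup.card_dvd_of_le hPK
    rw [hKK1] at h
    exact hnd h

end Cfsg.Agent.Lib.Helper89.P2PRE4
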