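import Mathlib
import Cfsg.Prelude.Def_CaseTheorems
import Cfsg.Agent.Lib.Helper89.NCStmt

/-!
# S0508 (dihedral Sylow 2-subgroups, Brauer-Suzuki-Wall configuration): piece statements

Every piece is a `Prop` here; it is proved in its own file as
`theorem main : Cfsg.Agent.Lib.Helper89.DSStmt.<Name>.{u}` (see the board call).
Throughout `C = C_G(t)`, `O = O(C)` seen in `G` (written as in S0508), `A = S ⊓ C_G(O)`, `K = O ⊔ A`.
-/

set_option autoImplicit false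

namespace Cfsg.Agent.Lib.Helper89.DSStmt

universe u

/-- the conclusion of S0508 -/
def Concl (G : Type u) [Group G] : Prop :=
  ∃ (F : Type) (_ : Field F) (_ : Fintype F), Odd (Fintype.card F) ∧
    Nonempty (G ≃* Matrix.ProjectiveSpecialLinearGroup (Fin 2) F)

/-- [NONAB] a simple group with a dihedral Sylow 2-subgroup of order `≥ 4` is not abelian. -/
def NonAb : Prop := ∀ (G : Type u) [Group G] [Finite G] [IsSimpleGroup G] (S : Sylow 2 G) (n : ℕ),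
  2 ≤ n → Nonempty (↥(S : Subgroup G) ≃* DihedralGroup n) → ¬ IsMulCommutative G

/-- [NPOW] a Sylow 2-subgroup `≃* DihedralGroup n`, `n ≥ 2`: `4 ∣ |S|` and `n = 2` or `n ≥ 4`. -/
def NPow : Prop := ∀ (G : Type u) [Group G] [Finite G] (S : Sylow 2 G) (n : ℕ),
  2 ≤ n → Nonempty (↥(S : Subgroup G) ≃* DihedralGroup n) →
  4 ∣ Nat.card ↥(S : Subgroup G) ∧ (n = 2 ∨ 4 ≤ n)

/-- [OBASIC] the odd core of a subgroup `H`, seen in `G`: inside `H`, of odd order, normalized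
by `H`. -/
def OBasic : Prop := ∀ (G : Type u) [Group G] [Finite G] (H : Subgroup G),
  (Cfsg.oddCore ↥H).map H.subtype ≤ H ∧ Odd (Nat.card ↥((Cfsg.oddCore ↥H).map H.subtype)) ∧
  ∀ c ∈ H, ∀ o ∈ (Cfsg.oddCore ↥H).map H.subtype, c * o * c⁻¹ ∈ (Cfsg.oddCore ↥H).map H.subtype

/-- [OIDX] dihedral Sylow 2-subgroup `S`, `t` an involution central in `S`: `C(t)` is 2-nilpotent,
i.e. its odd core has 2-power index (Thompson transfer S0111 inside `C(t)` + Frobenius; cf.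
`Cfsg.Agent.Lib.Helper77.DihG4.exists_complement` / `J_centralizer_facts`). -/
def OIdx : Prop := ∀ (G : Type u) [Group G] [Finite G] (S : Sylow 2 G) (n : ℕ),
  2 ≤ n → Nonempty (↥(S : Subgroup G) ≃* DihedralGroup n) → ∀ t : G, orderOf t = 2 →
  t ∈ (S : Subgroup G) → (∀ s ∈ (S : Subgroup G), s * t = t * s) →
  ∃ k : ℕ, (Cfsg.oddCore ↥(Subgroup.centralizer ({t} : Set G))).index = 2 ^ k

/-- [OFACT] `S ≤ H` a Sylow 2-subgroup of `G`, `O(H)` of 2-power index in `H`: `H = O(H) S`. -/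
def OFact : Prop := ∀ (G : Type u) [Group G] [Finite G] (S : Sylow 2 G) (H : Subgroup G),
  (S : Subgroup G) ≤ H → (∃ k : ℕ, (Cfsg.oddCore ↥H).index = 2 ^ k) →
  ∀ c ∈ H, ∃ o ∈ (Cfsg.oddCore ↥H).map H.subtype, ∃ s ∈ (S : Subgroup G), c = o * s

/-- [SINV] in a dihedral group the elements outside a cyclic subgroup of index 2 are involutions
inverting it. -/
def SInv : Prop := ∀ (G : Type u) [Group G] (S A : Subgroup G) (n : ℕ), 2 ≤ n →
  Nonempty (↥S ≃* DihedralGroup n) → A ≤ S → IsCyclic ↥A → A.relIndex S = 2 →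
  ∀ s ∈ S, s ∉ A → s * s = 1 ∧ ∀ a ∈ A, s * a * s⁻¹ = a⁻¹

/-- [KMEM] if `A` centralizes `O`, the elements of `O ⊔ A` are the products `o a`. -/
def KMem : Prop := ∀ (G : Type u) [Group G] (O A : Subgroup G), A ≤ Subgroup.centralizer (O : Set G) →
  ∀ x ∈ O ⊔ A, ∃ o ∈ O, ∃ a ∈ A, x = o * a

/-- [ODATA1] the Brauer-Suzuki-Wall data `K = O ⊔ A`, `s ∈ S ∖ A` (all hypotheses of S3282 except
the TI-property and the fusion of involutions). -/
def OData1 : Prop := KMem.{u} → ∀ (G : Type u) [Group G] [Finite G] (t : G) (S : Sylow 2 G)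
  (O : Subgroup G), orderOf t = 2 → t ∈ (S : Subgroup G) → (∀ s ∈ (S : Subgroup G), s * t = t * s) →
  O ≤ Subgroup.centralizer ({t} : Set G) → Odd (Nat.card ↥O) →
  (∀ c ∈ Subgroup.centralizer ({t} : Set G), ∃ o ∈ O, ∃ s ∈ (S : Subgroup G), c = o * s) →
  IsCyclic ↥((S : Subgroup G) ⊓ Subgroup.centralizer (O : Set G)) →
  ((S : Subgroup G) ⊓ Subgroup.centralizer (O : Set G)).relIndex (S : Subgroup G) = 2 →
  (∀ s ∈ (S : Subgroup G), s ∉ Subgroup.centralizer (O : Set G) → ∀ y ∈ O, s * y * s⁻¹ = y⁻¹) →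
  ∀ s ∈ (S : Subgroup G), s ∉ (S : Subgroup G) ⊓ Subgroup.centralizer (O : Set G) →
  (s * s = 1 ∧ ∀ a ∈ (S : Subgroup G) ⊓ Subgroup.centralizer (O : Set G), s * a * s⁻¹ = a⁻¹) →
  IsMulCommutative ↥(O ⊔ (S : Subgroup G) ⊓ Subgroup.centralizer (O : Set G)) ∧
  O ⊔ (S : Subgroup G) ⊓ Subgroup.centralizer (O : Set G) ≤ Subgroup.centralizer ({t} : Set G) ∧
  t ∈ O ⊔ (S : Subgroup G) ⊓ Subgroup.centralizer (O : Set G) ∧
  orderOf s = 2 ∧ s ∈ Subgroup.centralizer ({t} : Set G) ∧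
  s ∉ O ⊔ (S : Subgroup G) ⊓ Subgroup.centralizer (O : Set G) ∧
  (O ⊔ (S : Subgroup G) ⊓ Subgroup.centralizer (O : Set G)) ⊔ Subgroup.zpowers s =
    Subgroup.centralizer ({t} : Set G) ∧
  (O ⊔ (S : Subgroup G) ⊓ Subgroup.centralizer (O : Set G)) ⊓ Subgroup.centralizer ({s} : Set G) =
    Subgroup.zpowers t ∧
  ∀ x ∈ O ⊔ (S : Subgroup G) ⊓ Subgroup.centralizer (O : Set G), s * x * s⁻¹ = x⁻¹

/-- [ODATA2] the TI-property of `K = O ⊔ A`. -/
def OData2 : Prop := KMem.{u} → ∀ (G : Type u) [Group G] [Finite G] (t : G) (S : Sylow 2 G)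
  (O : Subgroup G), orderOf t = 2 → t ∈ (S : Subgroup G) → (∀ s ∈ (S : Subgroup G), s * t = t * s) →
  O ≤ Subgroup.centralizer ({t} : Set G) → Odd (Nat.card ↥O) →
  (∀ c ∈ Subgroup.centralizer ({t} : Set G), ∀ o ∈ O, c * o * c⁻¹ ∈ O) →
  IsCyclic ↥((S : Subgroup G) ⊓ Subgroup.centralizer (O : Set G)) →
  (∀ s ∈ (S : Subgroup G), s ∉ Subgroup.centralizer (O : Set G) → ∀ y ∈ O, s * y * s⁻¹ = y⁻¹) →
  (∀ Y : Subgroup G, Y ≤ O → Y ≠ ⊥ →
    Subgroup.normalizer (Y : Set G) ≤ Subgroup.centralizer ({t} : Set G)) →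
  ∀ g : G, g ∉ Subgroup.centralizer ({t} : Set G) →
    (O ⊔ (S : Subgroup G) ⊓ Subgroup.centralizer (O : Set G)) ⊓
      (O ⊔ (S : Subgroup G) ⊓ Subgroup.centralizer (O : Set G)).map (MulAut.conj g).toMonoidHom = ⊥

/-- [NOT12] with `O ≠ 1` the group does not have order 12 (else `C(t) = G`). -/
def Not12 : Prop := ∀ (G : Type u) [Group G] [Finite G] [IsSimpleGroup G], ¬ IsMulCommutative G →
  ∀ (t : G) (S : Sylow 2 G) (O : Subgroup G), 4 ∣ Nat.card ↥(S : Subgroup G) →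
  (S : Subgroup G) ≤ Subgroup.centralizer ({t} : Set G) → O ≤ Subgroup.centralizer ({t} : Set G) →
  Odd (Nat.card ↥O) → O ≠ ⊥ → Nat.card G ≠ 12

/-- [ISO45] `PSL(2,4) ≅ PSL(2,5)` (S0252, S0253). -/
def Iso45 : Prop := ∀ (F F' : Type) [Field F] [Fintype F] [Field F'] [Fintype F'],
  Fintype.card F = 4 → Fintype.card F' = 5 →
  Nonempty (Matrix.ProjectiveSpecialLinearGroup (Fin 2) F ≃* Matrix.ProjectiveSpecialLinearGroup (Fin 2) F')

/-- [V4ODD] `S = C(t)` of order 4: `G ≅ PSL(2,4) ≅ PSL(2,5)`. -/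
def V4Odd : Prop := Iso45 → ∀ (G : Type u) [Group G] [Finite G] [IsSimpleGroup G], ¬ IsMulCommutative G →
  ∀ (t : G) (S : Sylow 2 G), orderOf t = 2 → Nat.card ↥(S : Subgroup G) = 4 →
  (S : Subgroup G) = Subgroup.centralizer ({t} : Set G) → Concl G

/-- [ZZAS2] as `NCStmt.ZZas`, with `|G| ≠ 12` in place of `8 ∣ |G|`. -/
def ZZas2 : Prop := ∀ (G : Type u) [Group G] [Finite G] [IsSimpleGroup G], ¬ IsMulCommutative G →
  ∀ (Q D : Subgroup G), NCStmt.BSWData G Q D → Nat.card G ≠ 12 → NCStmt.RegOn G Q →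
  Cfsg.IsZassenhausGroup G (G ⧸ Subgroup.normalizer (Q : Set G)) ∧
  Q ≤ MulAction.stabilizer G (QuotientGroup.mk (1 : G) : G ⧸ Subgroup.normalizer (Q : Set G)) ∧
  (Q.subgroupOf (MulAction.stabilizer G
    (QuotientGroup.mk (1 : G) : G ⧸ Subgroup.normalizer (Q : Set G)))).Normal ∧
  IsMulCommutative ↥Q

end Cfsg.Agent.Lib.Helper89.DSStmt
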