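import Mathlib
import Cfsg.Agent.Lib.Helper41.TMTwoStmt
import Cfsg.Agent.Lib.Helper44.NegPairs
import Cfsg.Agent.Lib.Helper66.InvolDec

/-!
# S5987 / TM2INVDEC (call by helper41)

`V = Fx ⊥ Fm` for an isometry of the minus form with `x ^ 2 = 1` (`q` odd), from the generic
`Helper66.InvolDec.dec` (adapted from the S5973 piece `Helper66.TPINVDEC`).
-/

set_option autoImplicit false

universe u

open scoped Matrix

namespace Cfsg.Agent.Lib.Helper89.TM2INVDEC

open Cfsg.Agent.Lib.Helper41.TMTwoStmt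
open Cfsg.Agent.Lib.Helper45.OMiStmt (M Aniso FxM NDegM StabM TopNDM)
open Cfsg.Agent.Lib.Helper44.NegPairs (minusQ)
open Cfsg.Agent.Lib.Helper66.InvolDec
open QuadraticMap

theorem two_ne_zero_of_odd (F : Type u) [Field F] [Fintype F] (h : Odd (Fintype.card F)) :
    (2 : F) ≠ 0 := by
  apply Ring.two_ne_zero
  intro hc
  have := FiniteField.even_card_iff_char_two.mp hc
  rw [Nat.odd_iff] at h
  omega

theorem main (hTop : TopNDM.{u}) : InvDec.{u} := by
  intro F _ _ hodd d hd a b hab x hx hx2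
  have h2 : (2 : F) ≠ 0 := two_ne_zero_of_odd F hodd
  have hQ : ∀ u : M d → F, minusQ (d - 1) F a b ((x : Matrix (M d) (M d) F) *ᵥ u)
      = minusQ (d - 1) F a b u :=
    fun u => hx u u
  have hx2M : (x : Matrix (M d) (M d) F) * (x : Matrix (M d) (M d) F) = 1 := by
    rw [← Units.val_mul, ← pow_two, hx2, Units.val_one]
  have hT : ∀ w : M d → F, w ≠ 0 → ∃ y, polar (minusQ (d - 1) F a b) y w ≠ 0 := by
    intro w hw
    obtain ⟨⟨y, -, hy⟩, -⟩ := (hTop F hodd d a b hab) w Submodule.mem_top hw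
    exact ⟨y, hy⟩
  obtain ⟨h1, h3, h4, h5, h6⟩ := dec (minusQ (d - 1) F a b) h2 hT (x : Matrix (M d) (M d) F) hQ hx2M
  have h5' : FxM (x : Matrix (M d) (M d) F) ⊓ FmM (x : Matrix (M d) (M d) F) = ⊥ := h5
  have e : Fintype.card (M d) = 2 * d := by
    simp
    omega
  have h6' : Module.finrank F ↥(FxM (x : Matrix (M d) (M d) F)) +
      Module.finrank F ↥(FmM (x : Matrix (M d) (M d) F)) = 2 * d := by
    rw [← e]
    exact h6
  refine ⟨h1, h3, h4, h5', h6', ?_⟩
  apply Submodule.eq_top_of_finrank_eq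
  have h := Submodule.finrank_sup_add_finrank_inf_eq (FxM (x : Matrix (M d) (M d) F))
    (FmM (x : Matrix (M d) (M d) F))
  rw [h5', finrank_bot, add_zero, h6'] at h
  rw [h, Module.finrank_fintype_fun_eq_card, e]

end Cfsg.Agent.Lib.Helper89.TM2INVDEC
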