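import Mathlib
import Cfsg.Agent.Lib.Helper41.TMTwoStmt

/-!
# S5987 piece TM2SQNEG3

`q ≡ 3 (4)`, `x * x = -1`: by induction (SqNegTS) there are invariant totally singular subspaces
of every finrank `2 s` with `2 s + 1 ≤ d`.
-/

set_option autoImplicit false

universe u

namespace Cfsg.Agent.Lib.Helper89.TM2SQNEG3

open Cfsg.Agent.Lib.Helper41.TMTwoStmt
open Cfsg.Agent.Lib.Helper45.OMiStmt (M Aniso FxM NDegM StabM TopNDM)

theorem main : SqNegTS.{u} → SqNeg3.{u} := by
  intro hTS F _ _ hq d m a b hm hmd x hx hx2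
  have key : ∀ s : ℕ, 2 * s + 1 ≤ d → ∃ W : Submodule F (M d → F),
      StabM (x : Matrix (M d) (M d) F) W ∧ TSubM d F a b W ∧ Module.finrank F ↥W = 2 * s := by
    intro s
    induction s with
    | zero =>
      intro _
      refine ⟨⊥, ?_, ?_, ?_⟩
      · unfold StabM
        simp
      · intro w hw
        rw [Submodule.mem_bot] at hw
        subst hw
        simp [Cfsg.quadFormMinus]
      · simp
    | succ s ih =>
      intro hs
      obtain ⟨W, hW1, hW2, hW3⟩ := ih (by omega)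
      obtain ⟨W', hW1', hW2', hW3'⟩ := hTS F hq d a b x hx hx2 W hW1 hW2 (by omega)
      exact ⟨W', hW1', hW2', by omega⟩
  obtain ⟨k, hk⟩ := hm
  obtain ⟨W, hW1, hW2, hW3⟩ := key k (by omega)
  exact ⟨W, by omega, hW2, hW1⟩

end Cfsg.Agent.Lib.Helper89.TM2SQNEG3
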