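import Mathlib
import Cfsg.Agent.Lib.Helper41.TMTwoStmt
import Cfsg.Agent.Lib.Helper44.NegPairs
import Cfsg.Agent.Lib.Helper10.HypINVOL

/-!
# S5987 / TM2SQNEGTS (call by helper41)

`q ≡ 3 (mod 4)`, `x * x = -1`, `W` invariant totally singular with `finrank W + 2 ≤ d` (minus
form): an invariant totally singular `W'` of finrank `+ 2`.  Adapted from the S5973 piece
`Helper56.TPSQNEGTS`.
-/

set_option autoImplicit false

namespace Cfsg.Agent.Lib.Helper89.TM2SQNEGTS

open Module QuadraticMap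
open Cfsg.Agent.Lib.Helper41.TMTwoStmt Cfsg.Agent.Lib.Helper44.NegPairs
open Cfsg.Agent.Lib.Helper45.OMiStmt (M Aniso FxM NDegM StabM TopNDM)

universe u

theorem main (hTsExt : TsExt.{u}) : SqNegTS.{u} := by
  intro F _ _ hq d a₀ b₀ x hx hx2 W hStab hTS hlt
  classical
  have hodd : Odd (Fintype.card F) := Nat.odd_iff.mpr (by omega)
  obtain ⟨v, hvW, hQv, hBv⟩ := hTsExt F hodd d a₀ b₀ W hTS hlt
  obtain ⟨A, hAdef⟩ : ∃ A : (M d → F) →ₗ[F] (M d → F),
      A = Matrix.toLin' (x : Matrix (M d) (M d) F) := ⟨_, rfl⟩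
  have hAQ : ∀ u, minusQ (d - 1) F a₀ b₀ (A u) = minusQ (d - 1) F a₀ b₀ u := by
    intro u
    rw [hAdef, Matrix.toLin'_apply]
    exact hx u u
  have hAA : ∀ u, A (A u) = -u := by
    intro u
    rw [hAdef, ← Matrix.toLin'_mul_apply]
    rw [hx2, Matrix.toLin'_apply, Matrix.neg_mulVec, Matrix.one_mulVec]
  have hAW : ∀ w ∈ W, A w ∈ W := by
    intro w hw
    rw [hAdef]
    exact hStab (Submodule.mem_map_of_mem hw)
  have hpol : ∀ u w, polar (minusQ (d - 1) F a₀ b₀) (A u) (A w) = polar (minusQ (d - 1) F a₀ b₀) u w := by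
    intro u w
    unfold polar
    rw [← map_add, hAQ, hAQ, hAQ]
  have h2 : (2 : F) ≠ 0 := Cfsg.Agent.Lib.Helper10.HypINVOL.two_ne_zero_of_odd hodd
  have hnsq : ¬ IsSquare (-1 : F) := by
    rw [FiniteField.isSquare_neg_one_iff]
    omega
  have hQv' : minusQ (d - 1) F a₀ b₀ v = 0 := hQv
  have hQAv : minusQ (d - 1) F a₀ b₀ (A v) = 0 := by rw [hAQ]; exact hQv'
  have hQW : ∀ w ∈ W, minusQ (d - 1) F a₀ b₀ w = 0 := fun w hw => hTS w hw
  have hBv' : ∀ u ∈ W, polar (minusQ (d - 1) F a₀ b₀) u v = 0 := hBv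
  have hBvAv : polar (minusQ (d - 1) F a₀ b₀) v (A v) = 0 := by
    have h3 := hpol v (A v)
    rw [hAA, polar_neg_right, polar_comm] at h3
    have h4 : (2 : F) * polar (minusQ (d - 1) F a₀ b₀) v (A v) = 0 := by linear_combination -h3
    exact (mul_eq_zero.mp h4).resolve_left h2
  have hBwAv : ∀ w ∈ W, polar (minusQ (d - 1) F a₀ b₀) w (A v) = 0 := by
    intro w hw
    have h3 := hpol w (A v)
    rw [hAA, polar_neg_right] at h3
    rw [← h3, hBv' (A w) (hAW w hw), neg_zero]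
  -- independence modulo `W`
  have key : ∀ a b : F, a • v + b • A v ∈ W → a = 0 ∧ b = 0 := by
    intro a b hs
    have hAs : a • A v - b • v ∈ W := by
      have h5 := hAW _ hs
      rw [map_add, map_smul, map_smul, hAA] at h5
      have h6 : a • A v - b • v = a • A v + b • -v := by
        rw [smul_neg, sub_eq_add_neg]
      rw [h6]
      exact h5
    have h7 : (a * a + b * b) • v ∈ W := by
      have h8 : (a * a + b * b) • v = a • (a • v + b • A v) - b • (a • A v - b • v) := by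
        module
      rw [h8]
      exact W.sub_mem (W.smul_mem a hs) (W.smul_mem b hAs)
    have hab : a * a + b * b = 0 := by
      by_contra hne
      apply hvW
      have h9 := W.smul_mem (a * a + b * b)⁻¹ h7
      rwa [smul_smul, inv_mul_cancel₀ hne, one_smul] at h9
    have hb : b = 0 := by
      by_contra hb
      apply hnsq
      refine ⟨a / b, ?_⟩
      have h10 : a * a = -(b * b) := by linear_combination hab
      rw [div_mul_div_comm, h10, neg_div, div_self (mul_ne_zero hb hb)]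
    refine ⟨?_, hb⟩
    rw [hb] at hab
    simpa using hab
  obtain ⟨S, hSdef⟩ : ∃ S : Submodule F (M d → F), S = Submodule.span F (Set.range ![v, A v]) :=
    ⟨_, rfl⟩
  have hSmem : ∀ y, y ∈ S ↔ ∃ a b : F, a • v + b • A v = y := by
    intro y
    rw [hSdef, Submodule.mem_span_range_iff_exists_fun]
    constructor
    · rintro ⟨c, hc⟩
      refine ⟨c 0, c 1, ?_⟩
      rw [← hc, Fin.sum_univ_two]
      rfl
    · rintro ⟨a, b, hab⟩
      refine ⟨![a, b], ?_⟩
      rw [← hab, Fin.sum_univ_two]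
      rfl
  have hli : LinearIndependent F ![v, A v] := by
    rw [LinearIndependent.pair_iff]
    intro s t hst
    exact key s t (by rw [hst]; exact W.zero_mem)
  have hSdim : finrank F ↥S = 2 := by
    rw [hSdef, finrank_span_eq_card hli, Fintype.card_fin]
  have hinf : W ⊓ S = ⊥ := by
    rw [eq_bot_iff]
    rintro y ⟨hy1, hy2⟩
    obtain ⟨a, b, rfl⟩ := (hSmem y).mp hy2
    obtain ⟨ha, hb⟩ := key a b hy1
    rw [Submodule.mem_bot, ha, hb, zero_smul, zero_smul, add_zero]
  refine ⟨W ⊔ S, ?_, ?_, ?_⟩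
  · rintro _ ⟨y, hy, rfl⟩
    obtain ⟨w, hw, s, hs, rfl⟩ := Submodule.mem_sup.mp hy
    obtain ⟨a, b, rfl⟩ := (hSmem s).mp hs
    rw [← hAdef, map_add, map_add, map_smul, map_smul, hAA]
    apply Submodule.add_mem_sup (hAW w hw)
    rw [hSmem]
    refine ⟨-b, a, ?_⟩
    module
  · intro y hy
    obtain ⟨w, hw, s, hs, rfl⟩ := Submodule.mem_sup.mp hy
    obtain ⟨a, b, rfl⟩ := (hSmem s).mp hs
    show minusQ (d - 1) F a₀ b₀ (w + (a • v + b • A v)) = 0
    have e1 : minusQ (d - 1) F a₀ b₀ (w + (a • v + b • A v)) = minusQ (d - 1) F a₀ b₀ w + minusQ (d - 1) F a₀ b₀ (a • v + b • A v)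
        + polar (minusQ (d - 1) F a₀ b₀) w (a • v + b • A v) := QuadraticMap.map_add (minusQ (d - 1) F a₀ b₀) _ _
    have e2 : minusQ (d - 1) F a₀ b₀ (a • v + b • A v) = minusQ (d - 1) F a₀ b₀ (a • v) + minusQ (d - 1) F a₀ b₀ (b • A v)
        + polar (minusQ (d - 1) F a₀ b₀) (a • v) (b • A v) := QuadraticMap.map_add (minusQ (d - 1) F a₀ b₀) _ _
    have e3 : minusQ (d - 1) F a₀ b₀ (a • v) = (a * a) • minusQ (d - 1) F a₀ b₀ v := QuadraticMap.map_smul (minusQ (d - 1) F a₀ b₀) a v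
    have e4 : minusQ (d - 1) F a₀ b₀ (b • A v) = (b * b) • minusQ (d - 1) F a₀ b₀ (A v) :=
      QuadraticMap.map_smul (minusQ (d - 1) F a₀ b₀) b (A v)
    have e5 : polar (minusQ (d - 1) F a₀ b₀) (a • v) (b • A v) = a • (b • polar (minusQ (d - 1) F a₀ b₀) v (A v)) := by
      rw [QuadraticMap.polar_smul_left, QuadraticMap.polar_smul_right]
    have e6 : polar (minusQ (d - 1) F a₀ b₀) w (a • v + b • A v)
        = a • polar (minusQ (d - 1) F a₀ b₀) w v + b • polar (minusQ (d - 1) F a₀ b₀) w (A v) := by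
      rw [QuadraticMap.polar_add_right, QuadraticMap.polar_smul_right,
        QuadraticMap.polar_smul_right]
    rw [e1, e2, e3, e4, e5, e6, hQW w hw, hQv', hQAv, hBvAv, hBv' w hw, hBwAv w hw]
    simp
  · have h11 := Submodule.finrank_sup_add_finrank_inf_eq W S
    rw [hinf, finrank_bot, hSdim] at h11
    omega

end Cfsg.Agent.Lib.Helper89.TM2SQNEGTS
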