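import Mathlib
import Cfsg.Agent.Lib.Helper89.DSStmt

/-!
# S0508 / SINV: in a dihedral group, the elements outside a cyclic subgroup of index 2 are
involutions inverting it
-/

set_option autoImplicit false

namespace Cfsg.Agent.Lib.Helper89.DSSINV

open Cfsg.Agent.Lib.Helper89 DihedralGroup

universe u

theorem two_case : ∀ x b : DihedralGroup 2, x * x = 1 ∧ x * b * x⁻¹ = b⁻¹ := by decide

/-- the dihedral core -/
theorem core (n : ℕ) (hn : 2 ≤ n) (B : Subgroup (DihedralGroup n)) (hB : IsCyclic ↥B)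
    (hi : B.index = 2) (x : DihedralGroup n) (hx : x ∉ B) :
    x * x = 1 ∧ ∀ b ∈ B, x * b * x⁻¹ = b⁻¹ := by
  rcases Nat.lt_or_ge n 3 with h3 | h3
  · have h2 : n = 2 := by omega
    subst h2
    exact ⟨(two_case x 1).1, fun b _ => (two_case x b).2⟩
  · have hcardB : Nat.card ↥B = n := by
      have h := Subgroup.card_mul_index B
      rw [hi, DihedralGroup.nat_card] at h
      omega
    obtain ⟨g, hg⟩ := hB.exists_generator
    have hgord : orderOf g = n :=
      (orderOf_eq_card_of_forall_mem_zpowers hg).trans hcardB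
    -- the generator is a rotation
    obtain ⟨i, hgi⟩ : ∃ i : ZMod n, (g : DihedralGroup n) = r i := by
      cases hgv : (g : DihedralGroup n) with
      | r i => exact ⟨i, rfl⟩
      | sr i =>
        exfalso
        have h1 : orderOf (g : DihedralGroup n) = 2 := by
          rw [hgv]
          exact DihedralGroup.orderOf_sr i
        rw [Subgroup.orderOf_coe, hgord] at h1
        omega
    have hBrot : ∀ b ∈ B, ∃ j : ZMod n, b = r j := by
      intro b hb
      obtain ⟨m, hm⟩ := Subgroup.mem_zpowers_iff.mp (hg ⟨b, hb⟩)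
      have hm' : (g : DihedralGroup n) ^ m = b := by
        have := congrArg Subtype.val hm
        simpa using this
      rw [hgi, DihedralGroup.r_zpow] at hm'
      exact ⟨_, hm'.symm⟩
    have hsr0 : (sr 0 : DihedralGroup n) ∉ B := by
      intro h
      obtain ⟨j, hj⟩ := hBrot _ h
      cases hj
    -- `x` is a reflection
    obtain ⟨k, rfl⟩ : ∃ k : ZMod n, x = sr k := by
      cases x with
      | r j =>
        exfalso
        have hmem : r j * sr 0 ∈ B := by
          rw [Subgroup.mul_mem_iff_of_index_two hi]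
          exact ⟨fun h => absurd h hx, fun h => absurd h hsr0⟩
        rw [DihedralGroup.r_mul_sr] at hmem
        obtain ⟨j', hj'⟩ := hBrot _ hmem
        cases hj'
      | sr k => exact ⟨k, rfl⟩
    refine ⟨DihedralGroup.sr_mul_self k, ?_⟩
    intro b hb
    obtain ⟨j, rfl⟩ := hBrot b hb
    rw [DihedralGroup.sr_mul_r, DihedralGroup.inv_sr, DihedralGroup.sr_mul_sr, DihedralGroup.inv_r]
    congr 1
    ring

theorem main : DSStmt.SInv.{u} := by
  intro G _ S A n hn he hAS hAc hAi s hsS hsA
  obtain ⟨e⟩ := he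
  have hB1 : IsCyclic ↥(A.subgroupOf S) :=
    isCyclic_of_surjective (Subgroup.subgroupOfEquivOfLe hAS).symm.toMonoidHom
      (Subgroup.subgroupOfEquivOfLe hAS).symm.surjective
  have hB : IsCyclic ↥((A.subgroupOf S).map e.toMonoidHom) :=
    isCyclic_of_surjective ((A.subgroupOf S).equivMapOfInjective e.toMonoidHom e.injective).toMonoidHom
      ((A.subgroupOf S).equivMapOfInjective e.toMonoidHom e.injective).surjective
  have hi : ((A.subgroupOf S).map e.toMonoidHom).index = 2 := by
    have h1 : ((A.subgroupOf S).map e.toMonoidHom).index = (A.subgroupOf S).index :=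
      Subgroup.index_map_equiv (A.subgroupOf S) e
    rw [h1]
    exact hAi
  have hx : e ⟨s, hsS⟩ ∉ (A.subgroupOf S).map e.toMonoidHom := by
    rintro ⟨y, hy, hye⟩
    have : y = ⟨s, hsS⟩ := e.injective hye
    subst this
    exact hsA (Subgroup.mem_subgroupOf.mp hy)
  obtain ⟨h1, h2⟩ := core n hn _ hB hi (e ⟨s, hsS⟩) hx
  constructor
  · have h3 : e (⟨s, hsS⟩ * ⟨s, hsS⟩) = e 1 := by rw [map_mul, map_one]; exact h1
    have h4 := congrArg Subtype.val (e.injective h3)
    exact h4
  · intro a ha
    have hb : e ⟨a, hAS ha⟩ ∈ (A.subgroupOf S).map e.toMonoidHom :=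
      ⟨⟨a, hAS ha⟩, Subgroup.mem_subgroupOf.mpr ha, rfl⟩
    have h3 := h2 _ hb
    have h4 : e (⟨s, hsS⟩ * ⟨a, hAS ha⟩ * ⟨s, hsS⟩⁻¹) = e (⟨a, hAS ha⟩⁻¹) := by
      rw [map_mul, map_mul, map_inv, map_inv]
      exact h3
    have h5 := congrArg Subtype.val (e.injective h4)
    exact h5

end Cfsg.Agent.Lib.Helper89.DSSINV
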