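import Cfsg.Agent.Lib.Helper28.DxStmt
import Cfsg.Agent.Lib.Helper52.PG6

/-!
`S1615` piece LOC: if the commuting graph of a class of 3-transpositions has no triangles and
every member has exactly three commuting partners, these generate a symmetric group of degree 3.
-/

set_option autoImplicit false

namespace Cfsg.Agent.Lib.Helper89.DxLOC

open Cfsg Cfsg.Agent.Lib.Helper21.W3Class Cfsg.Agent.Lib.Helper21.W3Apps
  Cfsg.Agent.Lib.Helper28 Cfsg.Agent.Lib.Helper28.DxStmt

universe u

theorem main : LocP.{u} := by
  intro G _ _ D hD hT hTri hcard d hd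
  obtain ⟨a, b, c, hab, hac, hbc, hS⟩ := Set.ncard_eq_three.mp (hcard d hd)
  have ha : a ∈ Pt D d := by rw [hS]; simp
  have hb : b ∈ Pt D d := by rw [hS]; simp
  have hnc : ¬ Commute a b := hTri d hd a ha b hb hab
  have ha2 : a * a = 1 := hT.sq a ha.1
  have hb2 : b * b = 1 := hT.sq b hb.1
  have hainv : a⁻¹ = a := inv_eq_of_mul_eq_one_left ha2
  have hbinv : b⁻¹ = b := inv_eq_of_mul_eq_one_left hb2
  have h3 : (a * b) ^ 3 = 1 := by
    rcases tt_cases hD ha.1 hb.1 with h | h
    · exact absurd h hnc
    · exact h
  have habaD : a * b * a ∈ D := by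
    have := hT.conj a b hb.1
    rwa [hainv] at this
  have habaP : a * b * a ∈ Pt D d := by
    refine ⟨habaD, ?_, (ha.2.2.mul_right hb.2.2).mul_right ha.2.2⟩
    intro h
    apply hb.2.1
    have hda : d * a = a * d := ha.2.2
    calc b = a * (a * b * a) * a := by
            rw [show a * (a * b * a) * a = (a * a) * b * (a * a) by group, ha2, one_mul, mul_one]
      _ = a * d * a := by rw [h]
      _ = d * (a * a) := by rw [← hda, mul_assoc]
      _ = d := by rw [ha2, mul_one]
  have hne1 : a * b * a ≠ a := by
    intro h
    apply hab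
    have h1 : a * b = 1 := by
      have : a * b * a = 1 * a := by rw [one_mul]; exact h
      exact mul_right_cancel this
    calc a = a * (b * b) := by rw [hb2, mul_one]
      _ = (a * b) * b := by rw [mul_assoc]
      _ = b := by rw [h1, one_mul]
  have hne2 : a * b * a ≠ b := by
    intro h
    apply hnc
    show a * b = b * a
    calc a * b = (a * b * a) * a := by rw [mul_assoc (a * b), ha2, mul_one]
      _ = b * a := by rw [h]
  have hc : c = a * b * a := by
    have : a * b * a ∈ ({a, b, c} : Set G) := hS ▸ habaP
    simp only [Set.mem_insert_iff, Set.mem_singleton_iff] at this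
    rcases this with h | h | h
    · exact absurd h hne1
    · exact absurd h hne2
    · exact h.symm
  -- the generators in the subgroup
  obtain ⟨A, hA⟩ : ∃ A : ↥(Subgroup.closure (Pt D d)), (A : G) = a :=
    ⟨⟨a, Subgroup.subset_closure ha⟩, rfl⟩
  obtain ⟨B, hB⟩ : ∃ B : ↥(Subgroup.closure (Pt D d)), (B : G) = b :=
    ⟨⟨b, Subgroup.subset_closure hb⟩, rfl⟩
  have hrel : Cfsg.Agent.Lib.Helper52.PG6.Rel6 (A * B) A := by
    refine ⟨?_, ?_, ?_⟩
    · apply Subtype.ext
      simp only [Subgroup.coe_pow, Subgroup.coe_mul, hA, hB, Subgroup.coe_one]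
      exact h3
    · apply Subtype.ext
      simp only [Subgroup.coe_pow, hA, Subgroup.coe_one]
      rw [pow_two]; exact ha2
    · apply Subtype.ext
      simp only [Subgroup.coe_mul, hA, hB]
      have h3' : a * b * (a * b) * (a * b) = 1 := by
        rw [← h3, pow_succ, pow_two]
      calc a * (a * b) = (a * a) * b := by rw [mul_assoc]
        _ = b := by rw [ha2, one_mul]
        _ = (a * b * (a * b) * (a * b)) * b := by rw [h3', one_mul]
        _ = a * b * (a * b) * a * (b * b) := by group
        _ = a * b * (a * b) * a := by rw [hb2, mul_one]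
  have hne : A * B ≠ 1 := by
    intro h
    apply hab
    have h1 : a * b = 1 := by
      have := congrArg Subtype.val h
      simpa only [Subgroup.coe_mul, hA, hB, Subgroup.coe_one] using this
    calc a = a * (b * b) := by rw [hb2, mul_one]
      _ = (a * b) * b := by rw [mul_assoc]
      _ = b := by rw [h1, one_mul]
  have hgen : Subgroup.closure ({A * B, A} : Set ↥(Subgroup.closure (Pt D d))) = ⊤ := by
    rw [eq_top_iff, ← Subgroup.closure_closure_coe_preimage (k := Pt D d)]
    rw [Subgroup.closure_le]
    intro x hx
    have hx' : (x : G) ∈ ({a, b, c} : Set G) := hS ▸ (show (x : G) ∈ Pt D d from hx)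
    have hAm : A ∈ Subgroup.closure ({A * B, A} : Set ↥(Subgroup.closure (Pt D d))) :=
      Subgroup.subset_closure (by simp)
    have hABm : A * B ∈ Subgroup.closure ({A * B, A} : Set ↥(Subgroup.closure (Pt D d))) :=
      Subgroup.subset_closure (by simp)
    have hBm : B ∈ Subgroup.closure ({A * B, A} : Set ↥(Subgroup.closure (Pt D d))) := by
      have := mul_mem (inv_mem hAm) hABm
      rwa [inv_mul_cancel_left] at this
    simp only [Set.mem_insert_iff, Set.mem_singleton_iff] at hx'
    rcases hx' with h | h | h
    · have : x = A := Subtype.ext (by rw [h, hA])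
      rw [this]; exact hAm
    · have : x = B := Subtype.ext (by rw [h, hB])
      rw [this]; exact hBm
    · have : x = A * B * A := Subtype.ext (by
        rw [h, hc]; simp only [Subgroup.coe_mul, hA, hB])
      rw [this]; exact mul_mem hABm hAm
  exact Cfsg.Agent.Lib.Helper52.PG6.iso_S3 hrel hne hgen

end Cfsg.Agent.Lib.Helper89.DxLOC
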