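import Mathlib
import Cfsg.Agent.S5366

set_option autoImplicit false
set_option linter.unusedSimpArgs false
open Cfsg Cfsg.LineSystem Cfsg.Agent.S5366

namespace Cfsg.Agent.Lib.Helper89.Fischer

variable {G : Type*} [Group G]

theorem sq_cancel {x : G} (hx : x * x = 1) (w : G) : x * (x * w) = w := by
  rw [← mul_assoc, hx, one_mul]

theorem inv_of_sq {x : G} (hx : x * x = 1) : x⁻¹ = x := inv_eq_of_mul_eq_one_left hx

theorem braid_of {x y : G} (hx : x * x = 1) (hy : y * y = 1)
    (h : (x * y) ^ 2 = 1 ∨ (x * y) ^ 3 = 1) (hc : ¬ Commute x y) : x * y * x = y * x * y := by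
  have hx' := sq_cancel hx
  have hy' := sq_cancel hy
  rcases h with h | h
  · exfalso
    apply hc
    have h1 : x * (y * (x * y)) = 1 := by
      rw [← h, pow_two]; simp only [mul_assoc]
    have h2 := congrArg (fun w => y * (x * w)) h1
    simp only [hx', hy', mul_one] at h2
    exact h2
  · have h1 : x * (y * (x * (y * (x * y)))) = 1 := by
      rw [← h]; simp only [pow_succ, pow_zero, one_mul, mul_assoc]
    have h2 := congrArg (fun w => x * (y * (x * w))) h1
    simp only [hx', hy', mul_one] at h2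
    simp only [mul_assoc]
    exact h2.symm

/-- rewriting rules for the group generated by two involutions with a braid relation -/
theorem braid_rules {x y : G} (hx : x * x = 1) (hy : y * y = 1) (hb : x * y * x = y * x * y) :
    (y * (x * y) = x * (y * x)) ∧ (∀ w, y * (x * (y * w)) = x * (y * (x * w))) ∧
    (x * (y * (x * y)) = y * x) ∧ (∀ w, x * (y * (x * (y * w))) = y * (x * w)) := by
  have hx' := sq_cancel hx
  have hy' := sq_cancel hy
  have B1 : y * (x * y) = x * (y * x) := by
    simp only [mul_assoc] at hb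
    exact hb.symm
  have B1' : ∀ w, y * (x * (y * w)) = x * (y * (x * w)) := by
    intro w
    have := congrArg (fun v => v * w) B1
    simp only [mul_assoc] at this
    exact this
  have B2 : x * (y * (x * y)) = y * x := by
    rw [B1, hx']
  have B2' : ∀ w, x * (y * (x * (y * w))) = y * (x * w) := by
    intro w
    rw [B1', hx']
  exact ⟨B1, B1', B2, B2'⟩

/-- three involutions forming the transpositions of a copy of `S₃` -/
structure Tri (p q r : G) : Prop where
  pp : p * p = 1
  qq : q * q = 1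
  rr : r * r = 1
  pqp : p * q * p = r
  qpq : q * p * q = r
  prp : p * r * p = q
  rpr : r * p * r = q
  qrq : q * r * q = p
  rqr : r * q * r = p
  npq : ¬ Commute p q
  npr : ¬ Commute p r
  nqr : ¬ Commute q r

theorem tri_of_braid {x y : G} (hx : x * x = 1) (hy : y * y = 1)
    (hb : x * y * x = y * x * y) (hc : ¬ Commute x y) : Tri x y (x * y * x) := by
  have hx' := sq_cancel hx
  have hy' := sq_cancel hy
  obtain ⟨B1, B1', B2, B2'⟩ := braid_rules hx hy hb
  refine ⟨hx, hy, ?_, rfl, hb.symm, ?_, ?_, ?_, ?_, hc, ?_, ?_⟩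
  · simp only [mul_assoc, hx', hy', hx, hy, mul_one, B1, B1', B2, B2']
  · simp only [mul_assoc, hx', hy', hx, hy, mul_one, B1, B1', B2, B2']
  · simp only [mul_assoc, hx', hy', hx, hy, mul_one, B1, B1', B2, B2']
  · simp only [mul_assoc, hx', hy', hx, hy, mul_one, B1, B1', B2, B2']
  · simp only [mul_assoc, hx', hy', hx, hy, mul_one, B1, B1', B2, B2']
  · intro h
    apply hc
    have h' : x * (x * y * x) = x * y * x * x := h
    simp only [mul_assoc, hx', hy', hx, hy, mul_one, B1, B1', B2, B2'] at h'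
    exact h'.symm
  · intro h
    apply hc
    have h' : y * (x * y * x) = x * y * x * y := h
    simp only [mul_assoc, hx', hy', hx, hy, mul_one, B1, B1', B2, B2'] at h'
    exact h'

theorem tri_of {x y : G} (hx : x * x = 1) (hy : y * y = 1)
    (h : (x * y) ^ 2 = 1 ∨ (x * y) ^ 3 = 1) (hc : ¬ Commute x y) : Tri x y (x * y * x) :=
  tri_of_braid hx hy (braid_of hx hy h hc) hc

theorem Tri.swap {p q r : G} (h : Tri p q r) : Tri q p r :=
  ⟨h.qq, h.pp, h.rr, h.qpq, h.pqp, h.qrq, h.rqr, h.prp, h.rpr, fun c => h.npq c.symm, h.nqr, h.npr⟩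

theorem Tri.rot {p q r : G} (h : Tri p q r) : Tri q r p :=
  ⟨h.qq, h.rr, h.pp, h.qrq, h.rqr, h.qpq, h.pqp, h.rpr, h.prp, h.nqr, fun c => h.npq c.symm,
    fun c => h.npr c.symm⟩

theorem tri_pick {p q r : G} (hT : Tri p q r) {x y : G} (hx : x = p ∨ x = q ∨ x = r)
    (hy : y = p ∨ y = q ∨ y = r) (hxy : x ≠ y) :
    ∃ z, Tri x y z ∧ ∀ w : G, (w = p ∨ w = q ∨ w = r) ↔ (w = x ∨ w = y ∨ w = z) := by
  rcases hx with rfl | rfl | rfl <;> rcases hy with rfl | rfl | rfl
  · exact absurd rfl hxy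
  · exact ⟨r, hT, fun w => Iff.rfl⟩
  · exact ⟨q, hT.swap.rot, fun w => by tauto⟩
  · exact ⟨r, hT.swap, fun w => by tauto⟩
  · exact absurd rfl hxy
  · exact ⟨p, hT.rot, fun w => by tauto⟩
  · exact ⟨q, hT.rot.rot, fun w => by tauto⟩
  · exact ⟨p, hT.rot.swap, fun w => by tauto⟩
  · exact absurd rfl hxy

/-! ### The line system of a set of 3-transpositions -/

/-- the consequences of the 3-transposition hypotheses that are used -/
structure TT (D : Set G) : Prop where
  sq : ∀ x ∈ D, x * x = 1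
  tri : ∀ x ∈ D, ∀ y ∈ D, ¬ Commute x y → Tri x y (x * y * x)
  conj : ∀ x ∈ D, ∀ y ∈ D, x * y * x ∈ D

theorem tt_of {D : Set G} (hD : IsThreeTranspositionGroup D) : TT D := by
  obtain ⟨⟨h2, h3⟩, hc, -⟩ := hD
  have sq : ∀ x ∈ D, x * x = 1 := by
    intro x hx
    have h := pow_orderOf_eq_one x
    rw [h2 x hx, pow_two] at h
    exact h
  refine ⟨sq, fun x hx y hy hxy => tri_of (sq x hx) (sq y hy) (h3 x hx y hy) hxy, ?_⟩
  intro x hx y hy
  have h := hc x y hy
  rw [inv_of_sq (sq x hx)] at h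
  exact h

variable {D : Set G}

/-- the line through two points -/
def lineOf (x y : D) : Set D :=
  {z : D | (z : G) = x ∨ (z : G) = y ∨ (z : G) = (y : G) * x * (y : G)⁻¹}

theorem mem_lineOf {x y z : D} :
    z ∈ lineOf x y ↔ ((z : G) = x ∨ (z : G) = y ∨ (z : G) = (y : G) * x * (y : G)⁻¹) := Iff.rfl

theorem lineOf_eq_of_tri {p q r : G} (hT : Tri p q r) (x y : D)
    (hx : (x : G) = p ∨ (x : G) = q ∨ (x : G) = r) (hy : (y : G) = p ∨ (y : G) = q ∨ (y : G) = r)
    (hxy : (x : G) ≠ y) :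
    ¬ Commute (x : G) y ∧ lineOf x y = {z : D | (z : G) = p ∨ (z : G) = q ∨ (z : G) = r} := by
  obtain ⟨z, hT', hiff⟩ := tri_pick hT hx hy hxy
  refine ⟨hT'.npq, ?_⟩
  ext w
  show ((w : G) = x ∨ (w : G) = y ∨ (w : G) = (y : G) * x * (y : G)⁻¹) ↔ _
  rw [inv_of_sq hT'.qq, hT'.qpq]
  exact (hiff w).symm

theorem lineOf_eq (hD : TT D) (p q : D) (hpq : ¬ Commute (p : G) q) :
    lineOf p q = {z : D | (z : G) = p ∨ (z : G) = q ∨ (z : G) = (p : G) * q * p} :=
  (lineOf_eq_of_tri (hD.tri p p.2 q q.2 hpq) p q (Or.inl rfl) (Or.inr (Or.inl rfl))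
    (fun h => hpq (by rw [h]))).2

theorem mem_lines {l : Set D} :
    l ∈ threeTranspositionLines D ↔ ∃ x y : D, ¬ Commute (x : G) y ∧ l = lineOf x y := Iff.rfl

/-- a line is the line through any two of its points -/
theorem line_through (hD : TT D) {l : Set D} (hl : l ∈ threeTranspositionLines D) {x y : D}
    (hx : x ∈ l) (hy : y ∈ l) (hxy : x ≠ y) : ¬ Commute (x : G) y ∧ l = lineOf x y := by
  obtain ⟨p, q, hpq, rfl⟩ := mem_lines.mp hl
  have hT := hD.tri p p.2 q q.2 hpq
  rw [lineOf_eq hD p q hpq] at hx hy ⊢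
  have h := lineOf_eq_of_tri hT x y hx hy (fun h => hxy (Subtype.ext h))
  exact ⟨h.1, h.2.symm⟩

theorem partialLinear (hD : TT D) : IsPartialLinear (threeTranspositionLines D) := by
  intro l hl m hm x y hxy hxl hyl hxm hym
  rw [(line_through hD hl hxl hyl hxy).2, (line_through hD hm hxm hym hxy).2]

theorem ncard_three (hD : TT D) : ∀ l ∈ threeTranspositionLines D, l.ncard = 3 := by
  intro l hl
  obtain ⟨p, q, hpq, rfl⟩ := mem_lines.mp hl
  have hT := hD.tri p p.2 q q.2 hpq
  rw [lineOf_eq hD p q hpq, Set.ncard_eq_three]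
  refine ⟨p, q, ⟨(p : G) * q * p, hD.conj p p.2 q q.2⟩, ?_, ?_, ?_, ?_⟩
  · intro h
    exact hpq (by rw [h])
  · intro h
    apply hT.npr
    have h' : (p : G) = (p : G) * q * p := congrArg Subtype.val h
    rw [← h']
  · intro h
    apply hT.nqr
    have h' : (q : G) = (p : G) * q * p := congrArg Subtype.val h
    rw [← h']
  · ext w
    simp only [Set.mem_insert_iff, Set.mem_singleton_iff, Set.mem_ofPred_eq, Subtype.ext_iff]

theorem third_iff (hD : TT D) (x y z : D) :
    Third (threeTranspositionLines D) x y z ↔ (¬ Commute (x : G) y ∧ (z : G) = (x : G) * y * x) := by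
  constructor
  · rintro ⟨hzx, hzy, hxy, hl⟩
    have h := line_through hD hl (x := x) (y := y) (by simp) (by simp) hxy
    refine ⟨h.1, ?_⟩
    have hz : z ∈ lineOf x y := by
      rw [← h.2]; simp
    rw [lineOf_eq hD x y h.1] at hz
    rcases hz with hz | hz | hz
    · exact absurd (Subtype.ext hz) hzx
    · exact absurd (Subtype.ext hz) hzy
    · exact hz
  · rintro ⟨hxy, hz⟩
    have hT := hD.tri x x.2 y y.2 hxy
    refine ⟨?_, ?_, ?_, mem_lines.mpr ⟨x, y, hxy, ?_⟩⟩
    · intro h
      apply hT.npr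
      rw [← hz, h]
    · intro h
      apply hT.nqr
      rw [← hz, h]
    · intro h
      apply hxy
      rw [h]
    · rw [lineOf_eq hD x y hxy]
      ext w
      simp only [Set.mem_insert_iff, Set.mem_singleton_iff, Set.mem_ofPred_eq, Subtype.ext_iff, hz]

/-- every line is a `Third`-triple -/
theorem line_triple (hD : TT D) {l : Set D} (hl : l ∈ threeTranspositionLines D) :
    ∃ x y z, Third (threeTranspositionLines D) x y z ∧ l = {x, y, z} := by
  obtain ⟨p, q, hpq, rfl⟩ := mem_lines.mp hl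
  refine ⟨p, q, ⟨(p : G) * q * p, hD.conj p p.2 q q.2⟩, (third_iff hD _ _ _).mpr ⟨hpq, rfl⟩, ?_⟩
  rw [lineOf_eq hD p q hpq]
  ext w
  simp only [Set.mem_insert_iff, Set.mem_singleton_iff, Set.mem_ofPred_eq, Subtype.ext_iff]

/-! ### Isomorphisms from `Third` -/

theorem iso_of_third {X Y : Type*} {L : Set (Set X)} {N : Set (Set Y)} (e : X ≃ Y)
    (hL : ∀ l ∈ L, ∃ x y z, Third L x y z ∧ l = {x, y, z})
    (hN : ∀ n ∈ N, ∃ u v w, Third N u v w ∧ n = {u, v, w})
    (h : ∀ x y z, Third L x y z ↔ Third N (e x) (e y) (e z)) : IsIso L N e := by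
  intro l
  constructor
  · intro hl
    obtain ⟨x, y, z, hT, rfl⟩ := hL l hl
    rw [Set.image_insert_eq, Set.image_pair]
    exact ((h x y z).mp hT).2.2.2
  · intro hl
    obtain ⟨u, v, w, hT, heq⟩ := hN _ hl
    have hT' : Third L (e.symm u) (e.symm v) (e.symm w) := by
      rw [h, e.apply_symm_apply, e.apply_symm_apply, e.apply_symm_apply]
      exact hT
    have e1 : l = {e.symm u, e.symm v, e.symm w} := by
      have h2 := congrArg (fun s => e.symm '' s) heq
      simp only [Equiv.symm_image_image, Set.image_insert_eq, Set.image_singleton] at h2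
      exact h2
    rw [e1]
    exact hT'.2.2.2

/-- the plane lemma: a model plane mapped injectively into `D`, compatibly with third points,
onto a set containing `S` and contained in the span of `S`, is isomorphic to the span of `S` -/
theorem plane_iso (hD : TT D) {Y : Type*} (N : Set (Set Y)) (φ : Y → G) (hφD : ∀ u, φ u ∈ D)
    (hinj : Function.Injective φ)
    (H1 : ∀ u v w, Third N u v w ↔ (¬ Commute (φ u) (φ v) ∧ φ w = φ u * φ v * φ u))
    (H2 : ∀ u v, ¬ Commute (φ u) (φ v) → ∃ w, φ w = φ u * φ v * φ u)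
    (H4 : ∀ n ∈ N, ∃ u v w, Third N u v w ∧ n = {u, v, w})
    (S : Set D) (hS1 : ∀ x ∈ S, ∃ u, φ u = (x : G))
    (hS2 : ∀ u, (⟨φ u, hφD u⟩ : D) ∈ span (threeTranspositionLines D) S) :
    Isomorphic (restrict (threeTranspositionLines D) (span (threeTranspositionLines D) S)) N := by
  set L := threeTranspositionLines D with hLdef
  have hR : IsSubspace L {x : D | ∃ u, φ u = (x : G)} := by
    intro k hk x hx y hy hxy hxk hyk
    obtain ⟨z, hz, rfl⟩ := exists_third_of_mem (ncard_three hD) hk hxk hyk hxy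
    obtain ⟨u, hu⟩ := hx
    obtain ⟨v, hv⟩ := hy
    have hz' := (third_iff hD x y z).mp hz
    rw [← hu, ← hv] at hz'
    obtain ⟨w, hw⟩ := H2 u v hz'.1
    intro q hq
    rcases hq with rfl | rfl | rfl
    · exact ⟨u, hu⟩
    · exact ⟨v, hv⟩
    · exact ⟨w, hw.trans hz'.2.symm⟩
  have hsub : span L S ⊆ {x : D | ∃ u, φ u = (x : G)} :=
    Set.sInter_subset_of_mem ⟨hS1, hR⟩
  let f : Y → span L S := fun u => ⟨⟨φ u, hφD u⟩, hS2 u⟩
  have hf : Function.Bijective f := by
    constructor
    · intro u v huv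
      apply hinj
      have h1 := congrArg (fun p : span L S => ((p : D) : G)) huv
      exact h1
    · intro x
      obtain ⟨u, hu⟩ := hsub x.2
      exact ⟨u, Subtype.ext (Subtype.ext hu)⟩
  let e : span L S ≃ Y := (Equiv.ofBijective f hf).symm
  have he : ∀ x : span L S, φ (e x) = ((x : D) : G) := by
    intro x
    have h1 : f (e x) = x := (Equiv.ofBijective f hf).apply_symm_apply x
    exact congrArg (fun p : span L S => ((p : D) : G)) h1
  refine ⟨e, iso_of_third e ?_ H4 ?_⟩
  · rintro k ⟨l, hl, hlS, rfl⟩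
    obtain ⟨x, y, z, hT, rfl⟩ := line_triple hD hl
    have hx : x ∈ span L S := hlS (by simp)
    have hy : y ∈ span L S := hlS (by simp)
    have hz : z ∈ span L S := hlS (by simp)
    refine ⟨⟨x, hx⟩, ⟨y, hy⟩, ⟨z, hz⟩, (third_restrict_iff _ _ _).mpr hT, ?_⟩
    ext q
    simp only [Set.mem_insert_iff, Set.mem_singleton_iff, Set.mem_ofPred_eq, Subtype.ext_iff]
  · intro x y z
    rw [third_restrict_iff, third_iff hD, H1, he, he, he]

end Cfsg.Agent.Lib.Helper89.Fischer
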