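import Mathlib
import Cfsg.Agent.Lib.Helper89.Fischer1

set_option autoImplicit false
set_option linter.unusedSimpArgs false
open Cfsg Cfsg.LineSystem Cfsg.Agent.S5366

namespace Cfsg.Agent.Lib.Helper89.Fischer

variable {G : Type*} [Group G]

/-! ### The dual affine plane of order two -/

/-- index of a point of the dual affine plane -/
def idx (u : DualAffinePoint) : Fin 6 :=
  if 0 ∈ u.val ∧ 1 ∈ u.val then 1 else if 0 ∈ u.val ∧ 2 ∈ u.val then 2 else
  if 0 ∈ u.val ∧ 3 ∈ u.val then 5 else if 1 ∈ u.val ∧ 2 ∈ u.val then 0 else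
  if 1 ∈ u.val ∧ 3 ∈ u.val then 4 else 3

/-- the four lines of the dual affine plane, as triples of indices -/
def pts : Fin 4 → Fin 3 → Fin 6 := ![![0, 1, 2], ![0, 3, 4], ![1, 4, 5], ![2, 3, 5]]

/-- ordered collinear triples of indices -/
def T6 (i j k : Fin 6) : Prop :=
  ∃ ln : Fin 4, ∃ p q r : Fin 3, p ≠ q ∧ p ≠ r ∧ q ≠ r ∧ i = pts ln p ∧ j = pts ln q ∧ k = pts ln r

instance T6Decidable (i j k : Fin 6) : Decidable (T6 i j k) := by unfold T6; infer_instance

set_option maxRecDepth 100000 in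
set_option synthInstance.maxHeartbeats 400000 in
set_option synthInstance.maxSize 4096 in
theorem dThird_iff_T6 : ∀ u v w : DualAffinePoint, dThird u v w ↔ T6 (idx u) (idx v) (idx w) := by
  decide +kernel

set_option maxRecDepth 100000 in
set_option synthInstance.maxHeartbeats 400000 in
set_option synthInstance.maxSize 4096 in
theorem idx_injective : ∀ u v : DualAffinePoint, idx u = idx v → u = v := by
  decide +kernel

set_option maxRecDepth 100000 in
set_option synthInstance.maxHeartbeats 400000 in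
set_option synthInstance.maxSize 4096 in
theorem idx_surjective : ∀ i : Fin 6, ∃ u : DualAffinePoint, idx u = i := by
  decide +kernel

set_option maxRecDepth 100000 in
theorem T6_or_comm : ∀ i j : Fin 6, i ≠ j → (∃ k, T6 i j k) ∨ (i = 0 ∧ j = 5) ∨ (i = 5 ∧ j = 0) ∨
    (i = 1 ∧ j = 3) ∨ (i = 3 ∧ j = 1) ∨ (i = 2 ∧ j = 4) ∨ (i = 4 ∧ j = 2) := by
  decide +kernel

set_option maxRecDepth 100000 in
set_option synthInstance.maxHeartbeats 400000 in
set_option synthInstance.maxSize 4096 in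
theorem dual_line_pts : ∀ i : Fin 4, ∃ u v w : DualAffinePoint,
    dThird u v w ∧ i ∉ u.val ∧ i ∉ v.val ∧ i ∉ w.val := by
  decide +kernel

theorem dual_line_triple : ∀ n ∈ dualAffinePlaneTwo,
    ∃ u v w, Third dualAffinePlaneTwo u v w ∧ n = {u, v, w} := by
  rintro n ⟨i, rfl⟩
  obtain ⟨u, v, w, hT, hu, hv, hw⟩ := dual_line_pts i
  refine ⟨u, v, w, (third_dual_iff u v w).mpr hT, ?_⟩
  ext s
  simp only [Set.mem_insert_iff, Set.mem_singleton_iff, Set.mem_ofPred_eq]
  constructor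
  · intro hs
    exact dual_line_three i u v w s ⟨hT.1, hT.2.1, hT.2.2.1, hu, hv, hw, hs⟩
  · rintro (h | h | h)
    · rw [h]; exact hu
    · rw [h]; exact hv
    · rw [h]; exact hw

theorem tri_perm {f : Fin 3 → G} (h : Tri (f 0) (f 1) (f 2)) : ∀ p q r : Fin 3, p ≠ q → p ≠ r →
    q ≠ r → ¬ Commute (f p) (f q) ∧ f r = f p * f q * f p := by
  have key : ∀ x y z : G, Tri x y z → ¬ Commute x y ∧ z = x * y * x :=
    fun x y z h => ⟨h.npq, h.pqp.symm⟩
  intro p q r
  fin_cases p <;> fin_cases q <;> fin_cases r <;> intro h1 h2 h3 <;>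
  first
  | exact absurd rfl h1
  | exact absurd rfl h2
  | exact absurd rfl h3
  | exact key _ _ _ h
  | exact key _ _ _ h.swap.rot
  | exact key _ _ _ h.swap
  | exact key _ _ _ h.rot
  | exact key _ _ _ h.rot.rot
  | exact key _ _ _ h.rot.swap

theorem dual_abstract (g : Fin 6 → G)
    (hT : ∀ ln, Tri (g (pts ln 0)) (g (pts ln 1)) (g (pts ln 2)))
    (hC : Commute (g 0) (g 5) ∧ Commute (g 1) (g 3) ∧ Commute (g 2) (g 4))
    (hN : g 0 ≠ g 5 ∧ g 1 ≠ g 3 ∧ g 2 ≠ g 4) :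
    Function.Injective g ∧
      (∀ i j k, T6 i j k ↔ (¬ Commute (g i) (g j) ∧ g k = g i * g j * g i)) ∧
      (∀ i j, ¬ Commute (g i) (g j) → ∃ k, T6 i j k) := by
  have s1 : ∀ i j k, T6 i j k → ¬ Commute (g i) (g j) ∧ g k = g i * g j * g i := by
    rintro i j k ⟨ln, p, q, r, hpq, hpr, hqr, rfl, rfl, rfl⟩
    exact tri_perm (f := fun t => g (pts ln t)) (hT ln) p q r hpq hpr hqr
  have s2 : ∀ i j, ¬ Commute (g i) (g j) → ∃ k, T6 i j k := by
    intro i j hc
    have hij : i ≠ j := by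
      rintro rfl
      exact hc (Commute.refl _)
    rcases T6_or_comm i j hij with h | ⟨rfl, rfl⟩ | ⟨rfl, rfl⟩ | ⟨rfl, rfl⟩ | ⟨rfl, rfl⟩ |
      ⟨rfl, rfl⟩ | ⟨rfl, rfl⟩
    · exact h
    · exact absurd hC.1 hc
    · exact absurd hC.1.symm hc
    · exact absurd hC.2.1 hc
    · exact absurd hC.2.1.symm hc
    · exact absurd hC.2.2 hc
    · exact absurd hC.2.2.symm hc
  have s3 : Function.Injective g := by
    intro i j hij
    by_contra hne
    rcases T6_or_comm i j hne with ⟨k, hk⟩ | ⟨rfl, rfl⟩ | ⟨rfl, rfl⟩ | ⟨rfl, rfl⟩ | ⟨rfl, rfl⟩ |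
      ⟨rfl, rfl⟩ | ⟨rfl, rfl⟩
    · apply (s1 i j k hk).1
      rw [hij]
    · exact hN.1 hij
    · exact hN.1 hij.symm
    · exact hN.2.1 hij
    · exact hN.2.1 hij.symm
    · exact hN.2.2 hij
    · exact hN.2.2 hij.symm
  refine ⟨s3, fun i j k => ⟨s1 i j k, ?_⟩, s2⟩
  rintro ⟨hc, hk⟩
  obtain ⟨k', hk'⟩ := s2 i j hc
  have e : k' = k := s3 ((s1 i j k' hk').2.trans hk.symm)
  rw [← e]
  exact hk'

/-- the six points of the plane in the dual affine case -/
def g6 (a b d : G) : Fin 6 → G := ![a, b, a * b * a, d, a * d * a, b * (a * d * a) * b]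

theorem dual_case {D : Set G} (hD : TT D) (a b d : D) (hab : ¬ Commute (a : G) b)
    (had : ¬ Commute (a : G) d) (hbd : Commute (b : G) d) (hne : (b : G) ≠ d) :
    Isomorphic (restrict (threeTranspositionLines D)
      (span (threeTranspositionLines D) (lineOf a b ∪ lineOf a d))) dualAffinePlaneTwo := by
  have hlb := lineOf_eq hD a b hab
  have hld := lineOf_eq hD a d had
  obtain ⟨a, ha⟩ := a
  obtain ⟨b, hb⟩ := b
  obtain ⟨d, hd⟩ := d
  simp only at hab had hbd hne hlb hld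
  have ha2 := hD.sq a ha
  have hb2 := hD.sq b hb
  have hd2 := hD.sq d hd
  have ha' := sq_cancel ha2
  have hb' := sq_cancel hb2
  have hd' := sq_cancel hd2
  have T1 : Tri a b (a * b * a) := hD.tri a ha b hb hab
  have T2 : Tri a d (a * d * a) := hD.tri a ha d hd had
  have hb'D : a * b * a ∈ D := hD.conj a ha b hb
  have hd'D : a * d * a ∈ D := hD.conj a ha d hd
  have C1 : ∀ w, b * (d * w) = d * (b * w) := by
    intro w
    rw [← mul_assoc, hbd.eq, mul_assoc]
  have hbd' : ¬ Commute b (a * d * a) := by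
    intro h
    have h1 : Commute b (d * (a * d * a) * d) := (hbd.mul_right h).mul_right hbd
    rw [T2.qrq] at h1
    exact hab h1.symm
  have T3 : Tri b (a * d * a) (b * (a * d * a) * b) := hD.tri b hb _ hd'D hbd'
  have hcD : b * (a * d * a) * b ∈ D := hD.conj b hb _ hd'D
  have hb'd' : Commute (a * b * a) (a * d * a) := by
    show a * b * a * (a * d * a) = a * d * a * (a * b * a)
    simp only [mul_assoc, ha', C1]
  have hb'd : ¬ Commute (a * b * a) d := by
    intro h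
    have h1 : Commute (a * b * a) ((a * d * a) * d * (a * d * a)) :=
      (hb'd'.mul_right h).mul_right hb'd'
    rw [T2.rqr] at h1
    exact T1.npr h1.symm
  have hc : a * b * a * d * (a * b * a) = b * (a * d * a) * b := by
    rw [show a * b * a = b * a * b from T1.pqp.trans T1.qpq.symm]
    simp only [mul_assoc, C1, hb']
  have T4 : Tri (a * b * a) d (b * (a * d * a) * b) := by
    have h := hD.tri _ hb'D d hd hb'd
    rw [hc] at h
    exact h
  have hac : Commute a (b * (a * d * a) * b) := by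
    have h1 : a * (b * (a * d * a) * b) * a = b * (a * d * a) * b := by
      have e : a * (b * (a * d * a) * b) * a = a * b * a * d * (a * b * a) := by
        simp only [mul_assoc]
      rw [e, hc]
    show a * (b * (a * d * a) * b) = b * (a * d * a) * b * a
    have h2 := congrArg (fun w => w * a) h1
    simp only [mul_assoc, ha2, mul_one] at h2
    simp only [mul_assoc]
    exact h2
  have hbd_ne' : a * b * a ≠ a * d * a := by
    intro h
    apply hne
    rw [← T1.prp, ← T2.prp, h]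
  have hac_ne : a ≠ b * (a * d * a) * b := by
    intro h
    apply hbd_ne'
    rw [← T3.prp, ← h, T1.qpq]
  obtain ⟨ginj, gT, gex⟩ := dual_abstract (g6 a b d)
    (by
      intro ln
      fin_cases ln
      · exact T1
      · exact T2
      · exact T3
      · exact T4)
    ⟨hac, hbd, hb'd'⟩ ⟨hac_ne, hne, hbd_ne'⟩
  have gD : ∀ i, g6 a b d i ∈ D := by
    intro i
    fin_cases i
    · exact ha
    · exact hb
    · exact hb'D
    · exact hd
    · exact hd'D
    · exact hcD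
  set L := threeTranspositionLines D with hL
  have hsp := span_isSubspace L (lineOf ⟨a, ha⟩ ⟨b, hb⟩ ∪ lineOf ⟨a, ha⟩ ⟨d, hd⟩)
  have hsub := subset_span L (lineOf ⟨a, ha⟩ ⟨b, hb⟩ ∪ lineOf ⟨a, ha⟩ ⟨d, hd⟩)
  have m0 : (⟨a, ha⟩ : D) ∈ span L (lineOf ⟨a, ha⟩ ⟨b, hb⟩ ∪ lineOf ⟨a, ha⟩ ⟨d, hd⟩) :=
    hsub (Or.inl (by rw [hlb]; exact Or.inl rfl))
  have m1 : (⟨b, hb⟩ : D) ∈ span L (lineOf ⟨a, ha⟩ ⟨b, hb⟩ ∪ lineOf ⟨a, ha⟩ ⟨d, hd⟩) :=
    hsub (Or.inl (by rw [hlb]; exact Or.inr (Or.inl rfl)))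
  have m2 : (⟨a * b * a, hb'D⟩ : D) ∈
      span L (lineOf ⟨a, ha⟩ ⟨b, hb⟩ ∪ lineOf ⟨a, ha⟩ ⟨d, hd⟩) :=
    hsub (Or.inl (by rw [hlb]; exact Or.inr (Or.inr rfl)))
  have m3 : (⟨d, hd⟩ : D) ∈ span L (lineOf ⟨a, ha⟩ ⟨b, hb⟩ ∪ lineOf ⟨a, ha⟩ ⟨d, hd⟩) :=
    hsub (Or.inr (by rw [hld]; exact Or.inr (Or.inl rfl)))
  have m4 : (⟨a * d * a, hd'D⟩ : D) ∈
      span L (lineOf ⟨a, ha⟩ ⟨b, hb⟩ ∪ lineOf ⟨a, ha⟩ ⟨d, hd⟩) :=
    hsub (Or.inr (by rw [hld]; exact Or.inr (Or.inr rfl)))
  have m5 : (⟨b * (a * d * a) * b, hcD⟩ : D) ∈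
      span L (lineOf ⟨a, ha⟩ ⟨b, hb⟩ ∪ lineOf ⟨a, ha⟩ ⟨d, hd⟩) :=
    third_mem_subspace hsp m1 m4 ((third_iff hD _ _ _).mpr ⟨hbd', rfl⟩)
  refine plane_iso hD dualAffinePlaneTwo (fun u => g6 a b d (idx u)) (fun u => gD (idx u))
    (fun u v h => idx_injective u v (ginj h)) ?_ ?_ dual_line_triple _ ?_ ?_
  · intro u v w
    rw [third_dual_iff, dThird_iff_T6, gT]
  · intro u v h
    obtain ⟨k, hk⟩ := gex _ _ h
    obtain ⟨w, hw⟩ := idx_surjective k
    refine ⟨w, ?_⟩
    show g6 a b d (idx w) = _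
    rw [hw]
    exact ((gT _ _ k).mp hk).2
  · have key : ∀ (i : Fin 6) (x : D), g6 a b d i = (x : G) → ∃ u, g6 a b d (idx u) = (x : G) := by
      intro i x hx
      obtain ⟨u, hu⟩ := idx_surjective i
      exact ⟨u, by rw [hu]; exact hx⟩
    rintro x (hx | hx)
    · rw [hlb] at hx
      rcases hx with h | h | h
      · exact key 0 x h.symm
      · exact key 1 x h.symm
      · exact key 2 x h.symm
    · rw [hld] at hx
      rcases hx with h | h | h
      · exact key 0 x h.symm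
      · exact key 3 x h.symm
      · exact key 4 x h.symm
  · have key : ∀ (i : Fin 6) (h : g6 a b d i ∈ D), (⟨g6 a b d i, h⟩ : D) ∈
        span L (lineOf ⟨a, ha⟩ ⟨b, hb⟩ ∪ lineOf ⟨a, ha⟩ ⟨d, hd⟩) := by
      intro i
      fin_cases i
      · intro _; exact m0
      · intro _; exact m1
      · intro _; exact m2
      · intro _; exact m3
      · intro _; exact m4
      · intro _; exact m5
    intro u
    exact key (idx u) _

end Cfsg.Agent.Lib.Helper89.Fischer
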