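import Mathlib
import Cfsg.Agent.Lib.Helper89.Fischer1

set_option autoImplicit false
set_option linter.unusedSimpArgs false
open Cfsg Cfsg.LineSystem Cfsg.Agent.S5366

namespace Cfsg.Agent.Lib.Helper89.Fischer

variable {G : Type*} [Group G]

/-! ### The affine plane of order three -/

/-- the nine points of the plane in the affine case -/
def phi (a b d : G) (i j : ZMod 3) : G :=
  if i = 0 then (if j = 0 then a else if j = 1 then d else a * d * a)
  else if i = 1 then
    (if j = 0 then b else if j = 1 then (a * b * a) * (a * d * a) * (a * b * a)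
      else (a * b * a) * d * (a * b * a))
  else (if j = 0 then a * b * a else if j = 1 then b * (a * d * a) * b else b * d * b)

theorem phi_00 (a b d : G) : phi a b d 0 0 = a := rfl
theorem phi_01 (a b d : G) : phi a b d 0 1 = d := rfl
theorem phi_02 (a b d : G) : phi a b d 0 2 = a * d * a := rfl
theorem phi_10 (a b d : G) : phi a b d 1 0 = b := rfl
theorem phi_11 (a b d : G) : phi a b d 1 1 = (a * b * a) * (a * d * a) * (a * b * a) := rfl
theorem phi_12 (a b d : G) : phi a b d 1 2 = (a * b * a) * d * (a * b * a) := rfl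
theorem phi_20 (a b d : G) : phi a b d 2 0 = a * b * a := rfl
theorem phi_21 (a b d : G) : phi a b d 2 1 = b * (a * d * a) * b := rfl
theorem phi_22 (a b d : G) : phi a b d 2 2 = b * d * b := rfl

theorem n00 : (-0 - 0 : ZMod 3) = 0 := by decide
theorem n01 : (-0 - 1 : ZMod 3) = 2 := by decide
theorem n02 : (-0 - 2 : ZMod 3) = 1 := by decide
theorem n10 : (-1 - 0 : ZMod 3) = 2 := by decide
theorem n11 : (-1 - 1 : ZMod 3) = 1 := by decide
theorem n12 : (-1 - 2 : ZMod 3) = 0 := by decide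
theorem n20 : (-2 - 0 : ZMod 3) = 1 := by decide
theorem n21 : (-2 - 1 : ZMod 3) = 0 := by decide
theorem n22 : (-2 - 2 : ZMod 3) = 2 := by decide

/-- reflection in the point `(i, j)` -/
def Q (a b d : G) (i j : ZMod 3) : Prop :=
  ∀ k l : ZMod 3, phi a b d i j * phi a b d k l * phi a b d i j = phi a b d (-i - k) (-j - l)

theorem Q00 {a b d : G} (ha : a * a = 1) (hb : b * b = 1) (hd : d * d = 1)
    (hab : a * b * a = b * a * b) : Q a b d 0 0 := by
  have ha' := sq_cancel ha
  have hb' := sq_cancel hb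
  have hd' := sq_cancel hd
  obtain ⟨B1, B1', B2, B2'⟩ := braid_rules ha hb hab
  intro k l
  rcases zmod3_cases k with rfl | rfl | rfl <;> rcases zmod3_cases l with rfl | rfl | rfl <;>
    simp only [n00, n01, n02, n10, n11, n12, n20, n21, n22, phi_00, phi_01, phi_02, phi_10,
      phi_11, phi_12, phi_20, phi_21, phi_22, mul_assoc, ha, hb, hd, ha', hb', hd', mul_one, one_mul,
      B1, B1', B2, B2']

theorem Q10 {a b d : G} (ha : a * a = 1) (hb : b * b = 1) (hd : d * d = 1)
    (hab : a * b * a = b * a * b) : Q a b d 1 0 := by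
  have ha' := sq_cancel ha
  have hb' := sq_cancel hb
  have hd' := sq_cancel hd
  obtain ⟨B1, B1', B2, B2'⟩ := braid_rules ha hb hab
  intro k l
  rcases zmod3_cases k with rfl | rfl | rfl <;> rcases zmod3_cases l with rfl | rfl | rfl <;>
    simp only [n00, n01, n02, n10, n11, n12, n20, n21, n22, phi_00, phi_01, phi_02, phi_10,
      phi_11, phi_12, phi_20, phi_21, phi_22, mul_assoc, ha, hb, hd, ha', hb', hd', mul_one, one_mul,
      B1, B1', B2, B2']

theorem phi_swap {a b d : G} (h1 : b * d * b = d * b * d)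
    (h2 : b * (a * d * a) * b = (a * d * a) * b * (a * d * a))
    (h3 : (a * b * a) * d * (a * b * a) = d * (a * b * a) * d)
    (h4 : (a * b * a) * (a * d * a) * (a * b * a) = (a * d * a) * (a * b * a) * (a * d * a)) :
    ∀ i j, phi a b d i j = phi a d b j i := by
  intro i j
  rcases zmod3_cases i with rfl | rfl | rfl <;> rcases zmod3_cases j with rfl | rfl | rfl
  · rfl
  · rfl
  · rfl
  · rfl
  · exact h4
  · exact h3
  · rfl
  · exact h2
  · exact h1

theorem Q01 {a b d : G} (hs : ∀ i j, phi a b d i j = phi a d b j i) (h : Q a d b 1 0) :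
    Q a b d 0 1 := by
  intro k l
  rw [hs 0 1, hs k l, hs (-0 - k) (-1 - l)]
  exact h l k

theorem Q_prop {a b d : G} {i j i' j' i'' j'' : ZMod 3} (hi : -i - i' = i'') (hj : -j - j' = j'')
    (h1 : Q a b d i j) (h2 : Q a b d i' j') : Q a b d i'' j'' := by
  subst hi hj
  intro k l
  have h3 : (3 : ZMod 3) = 0 := by decide
  have e1 := h1 i' j'
  have e2 := h1 k l
  have e3 := h2 (-i - k) (-j - l)
  have e4 := h1 (-i' - (-i - k)) (-j' - (-j - l))
  have i1 : -i - (-i' - (-i - k)) = -(-i - i') - k := by linear_combination (-i) * h3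
  have i2 : -j - (-j' - (-j - l)) = -(-j - j') - l := by linear_combination (-j) * h3
  rw [← i1, ← i2, ← e4, ← e3, ← e2, ← e1]
  simp only [mul_assoc]

theorem Q_all {a b d : G} (h00 : Q a b d 0 0) (h10 : Q a b d 1 0) (h01 : Q a b d 0 1) :
    ∀ i j, Q a b d i j := by
  have h20 : Q a b d 2 0 := Q_prop (by decide) (by decide) h00 h10
  have h02 : Q a b d 0 2 := Q_prop (by decide) (by decide) h00 h01
  have h22 : Q a b d 2 2 := Q_prop (by decide) (by decide) h10 h01
  have h21 : Q a b d 2 1 := Q_prop (by decide) (by decide) h10 h02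
  have h12 : Q a b d 1 2 := Q_prop (by decide) (by decide) h20 h01
  have h11 : Q a b d 1 1 := Q_prop (by decide) (by decide) h20 h02
  intro i j
  rcases zmod3_cases i with rfl | rfl | rfl <;> rcases zmod3_cases j with rfl | rfl | rfl <;>
    assumption

theorem phi_sq {a b d : G} (ha : a * a = 1) (hb : b * b = 1) (hd : d * d = 1) :
    ∀ i j, phi a b d i j * phi a b d i j = 1 := by
  have ha' := sq_cancel ha
  have hb' := sq_cancel hb
  have hd' := sq_cancel hd
  intro i j
  rcases zmod3_cases i with rfl | rfl | rfl <;> rcases zmod3_cases j with rfl | rfl | rfl <;>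
    simp only [phi_00, phi_01, phi_02, phi_10,
      phi_11, phi_12, phi_20, phi_21, phi_22, mul_assoc, ha, hb, hd, ha', hb', hd', mul_one, one_mul]

theorem phi_step {a b d : G} (hQ : ∀ i j, Q a b d i j) {i j k l : ZMod 3}
    (h : phi a b d i j = phi a b d k l) (p q : ZMod 3) :
    phi a b d (-p - i) (-q - j) = phi a b d (-p - k) (-q - l) := by
  rw [← hQ p q i j, ← hQ p q k l, h]

theorem phi_trans {a b d : G} (hQ : ∀ i j, Q a b d i j) {i j k l : ZMod 3}
    (h : phi a b d i j = phi a b d k l) (s t : ZMod 3) :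
    phi a b d (i + s) (j + t) = phi a b d (k + s) (l + t) := by
  have h2 := phi_step hQ (phi_step hQ h 0 0) (-s) (-t)
  have e : ∀ x y : ZMod 3, -(-y) - (-0 - x) = x + y := fun x y => by ring
  rw [e, e, e, e] at h2
  exact h2

theorem phi_zero {a b d : G} (hQ : ∀ i j, Q a b d i j) (hab : a ≠ b) (had : a ≠ d) (hbd : b ≠ d)
    (hdb' : d ≠ a * b * a) : ∀ i j, phi a b d i j = phi a b d 0 0 → i = 0 ∧ j = 0 := by
  have key : ∀ i j s t i' j' : ZMod 3, i + s = i' → j + t = j' →
      phi a b d i j = phi a b d 0 0 → phi a b d i' j' = phi a b d s t := by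
    intro i j s t i' j' hi hj h
    have h2 := phi_trans hQ h s t
    rw [hi, hj, zero_add, zero_add] at h2
    exact h2
  have c10 : phi a b d 1 0 ≠ phi a b d 0 0 := fun h => hab h.symm
  have c01 : phi a b d 0 1 ≠ phi a b d 0 0 := fun h => had h.symm
  have c11 : phi a b d 1 1 ≠ phi a b d 0 0 := fun h =>
    hdb' (key 1 1 2 0 0 1 (by decide) (by decide) h)
  have c12 : phi a b d 1 2 ≠ phi a b d 0 0 := fun h =>
    hbd (key 1 2 0 1 1 0 (by decide) (by decide) h)
  have c20 : phi a b d 2 0 ≠ phi a b d 0 0 := fun h =>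
    c10 ((key 2 0 2 0 1 0 (by decide) (by decide) h).trans h)
  have c02 : phi a b d 0 2 ≠ phi a b d 0 0 := fun h =>
    c01 ((key 0 2 0 2 0 1 (by decide) (by decide) h).trans h)
  have c22 : phi a b d 2 2 ≠ phi a b d 0 0 := fun h =>
    c11 ((key 2 2 2 2 1 1 (by decide) (by decide) h).trans h)
  have c21 : phi a b d 2 1 ≠ phi a b d 0 0 := fun h =>
    c12 ((key 2 1 2 1 1 2 (by decide) (by decide) h).trans h)
  intro i j h
  rcases zmod3_cases i with rfl | rfl | rfl <;> rcases zmod3_cases j with rfl | rfl | rfl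
  · exact ⟨rfl, rfl⟩
  · exact absurd h c01
  · exact absurd h c02
  · exact absurd h c10
  · exact absurd h c11
  · exact absurd h c12
  · exact absurd h c20
  · exact absurd h c21
  · exact absurd h c22

theorem phi_inj {a b d : G} (hQ : ∀ i j, Q a b d i j) (hab : a ≠ b) (had : a ≠ d) (hbd : b ≠ d)
    (hdb' : d ≠ a * b * a) {i j k l : ZMod 3} (h : phi a b d i j = phi a b d k l) :
    i = k ∧ j = l := by
  have h2 := phi_trans hQ h (-k) (-l)
  rw [add_neg_cancel, add_neg_cancel] at h2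
  obtain ⟨h3, h4⟩ := phi_zero hQ hab had hbd hdb' _ _ h2
  exact ⟨by linear_combination h3, by linear_combination h4⟩

theorem phi_commute {a b d : G} (ha : a * a = 1) (hb : b * b = 1) (hd : d * d = 1)
    (hQ : ∀ i j, Q a b d i j) (hab : a ≠ b) (had : a ≠ d) (hbd : b ≠ d)
    (hdb' : d ≠ a * b * a) {i j k l : ZMod 3} (h : Commute (phi a b d i j) (phi a b d k l)) :
    i = k ∧ j = l := by
  have h3 : (3 : ZMod 3) = 0 := by decide
  have h1 : phi a b d i j * phi a b d k l * phi a b d i j = phi a b d k l := by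
    rw [h.eq, mul_assoc, phi_sq ha hb hd, mul_one]
  rw [hQ i j k l] at h1
  obtain ⟨e1, e2⟩ := phi_inj hQ hab had hbd hdb' h1
  exact ⟨by linear_combination (-1 : ZMod 3) * e1 - k * h3,
    by linear_combination (-1 : ZMod 3) * e2 - l * h3⟩

theorem third_affine {u v : Fin 2 → ZMod 3} (huv : u ≠ v) :
    Third affinePlaneThree u v (-u - v) := by
  have h3 : (3 : ZMod 3) = 0 := by decide
  refine ⟨?_, ?_, huv, affine_line_mem u v huv⟩
  · intro h
    apply huv
    funext i
    have hi := congrFun h i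
    simp only [Pi.sub_apply, Pi.neg_apply] at hi
    linear_combination hi + (u i) * h3
  · intro h
    apply huv
    funext i
    have hi := congrFun h i
    simp only [Pi.sub_apply, Pi.neg_apply] at hi
    linear_combination (-1 : ZMod 3) * hi - (v i) * h3

theorem affine_line_triple : ∀ n ∈ affinePlaneThree,
    ∃ u v w, Third affinePlaneThree u v w ∧ n = {u, v, w} := by
  rintro n ⟨v, w, hw, rfl⟩
  have h3 : (3 : ZMod 3) = 0 := by decide
  have hne : v ≠ v + w := fun h => hw (by simpa using h.symm)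
  refine ⟨v, v + w, -v - (v + w), third_affine hne, ?_⟩
  have e2 : -v - (v + w) = v + (2 : ZMod 3) • w := by
    funext i
    simp only [Pi.add_apply, Pi.sub_apply, Pi.neg_apply, Pi.smul_apply, smul_eq_mul]
    linear_combination (-(v i) - (w i)) * h3
  ext p
  simp only [Set.mem_insert_iff, Set.mem_singleton_iff, Set.mem_ofPred_eq]
  constructor
  · rintro ⟨c, rfl⟩
    rcases zmod3_cases c with rfl | rfl | rfl
    · left; simp
    · right; left; simp
    · right; right; rw [e2]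
  · rintro (h | h | h)
    · exact ⟨0, by rw [h]; simp⟩
    · exact ⟨1, by rw [h]; simp⟩
    · exact ⟨2, by rw [h, e2]⟩

theorem fin2_ext {u v : Fin 2 → ZMod 3} (h0 : u 0 = v 0) (h1 : u 1 = v 1) : u = v := by
  funext i
  fin_cases i
  · exact h0
  · exact h1

theorem affine_case {D : Set G} (hD : TT D) (a b d : D) (hab : ¬ Commute (a : G) b)
    (had : ¬ Commute (a : G) d) (hbd : ¬ Commute (b : G) d)
    (hbd' : ¬ Commute (b : G) ((a : G) * d * a)) (hne : (d : G) ≠ (a : G) * b * a) :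
    Isomorphic (restrict (threeTranspositionLines D)
      (span (threeTranspositionLines D) (lineOf a b ∪ lineOf a d))) affinePlaneThree := by
  have hlb := lineOf_eq hD a b hab
  have hld := lineOf_eq hD a d had
  obtain ⟨a, ha⟩ := a
  obtain ⟨b, hb⟩ := b
  obtain ⟨d, hd⟩ := d
  simp only at hab had hbd hbd' hne hlb hld
  have ha2 := hD.sq a ha
  have hb2 := hD.sq b hb
  have hd2 := hD.sq d hd
  have ha' := sq_cancel ha2
  have T1 : Tri a b (a * b * a) := hD.tri a ha b hb hab
  have T2 : Tri a d (a * d * a) := hD.tri a ha d hd had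
  have hb'D : a * b * a ∈ D := hD.conj a ha b hb
  have hd'D : a * d * a ∈ D := hD.conj a ha d hd
  have hb'd' : ¬ Commute (a * b * a) (a * d * a) := by
    intro h
    apply hbd
    have h' : a * (b * (d * a)) = a * (d * (b * a)) := by
      have := h.eq
      simp only [mul_assoc, ha'] at this
      exact this
    have h'' := mul_left_cancel h'
    rw [← mul_assoc, ← mul_assoc] at h''
    exact mul_right_cancel h''
  have hb'd : ¬ Commute (a * b * a) d := by
    intro h
    apply hbd'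
    have h' := congrArg (fun w => a * w * a) h.eq
    simp only [mul_assoc, ha', ha2, mul_one] at h'
    show b * (a * d * a) = a * d * a * b
    simp only [mul_assoc]
    exact h'
  have U3 := hD.tri b hb d hd hbd
  have U4 := hD.tri b hb _ hd'D hbd'
  have U5 := hD.tri _ hb'D d hd hb'd
  have U6 := hD.tri _ hb'D _ hd'D hb'd'
  have hs : ∀ i j, phi a b d i j = phi a d b j i :=
    phi_swap U3.qpq.symm U4.qpq.symm U5.qpq.symm U6.qpq.symm
  have hQ : ∀ i j, Q a b d i j :=
    Q_all (Q00 ha2 hb2 hd2 T1.qpq.symm) (Q10 ha2 hb2 hd2 T1.qpq.symm)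
      (Q01 hs (Q10 ha2 hd2 hb2 T2.qpq.symm))
  have nab : a ≠ b := fun h => hab (by rw [h])
  have nad : a ≠ d := fun h => had (by rw [h])
  have nbd : b ≠ d := fun h => hbd (by rw [h])
  have hinj : ∀ i j k l, phi a b d i j = phi a b d k l → i = k ∧ j = l :=
    fun i j k l h => phi_inj hQ nab nad nbd hne h
  have hcomm : ∀ i j k l, Commute (phi a b d i j) (phi a b d k l) → i = k ∧ j = l :=
    fun i j k l h => phi_commute ha2 hb2 hd2 hQ nab nad nbd hne h
  have pD : ∀ i j, phi a b d i j ∈ D := by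
    intro i j
    rcases zmod3_cases i with rfl | rfl | rfl <;> rcases zmod3_cases j with rfl | rfl | rfl
    · exact ha
    · exact hd
    · exact hd'D
    · exact hb
    · exact hD.conj _ hb'D _ hd'D
    · exact hD.conj _ hb'D _ hd
    · exact hb'D
    · exact hD.conj _ hb _ hd'D
    · exact hD.conj _ hb _ hd
  set L := threeTranspositionLines D with hL
  have hsp := span_isSubspace L (lineOf ⟨a, ha⟩ ⟨b, hb⟩ ∪ lineOf ⟨a, ha⟩ ⟨d, hd⟩)
  have hsub := subset_span L (lineOf ⟨a, ha⟩ ⟨b, hb⟩ ∪ lineOf ⟨a, ha⟩ ⟨d, hd⟩)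
  have m00 : (⟨a, ha⟩ : D) ∈ span L (lineOf ⟨a, ha⟩ ⟨b, hb⟩ ∪ lineOf ⟨a, ha⟩ ⟨d, hd⟩) :=
    hsub (Or.inl (by rw [hlb]; exact Or.inl rfl))
  have m10 : (⟨b, hb⟩ : D) ∈ span L (lineOf ⟨a, ha⟩ ⟨b, hb⟩ ∪ lineOf ⟨a, ha⟩ ⟨d, hd⟩) :=
    hsub (Or.inl (by rw [hlb]; exact Or.inr (Or.inl rfl)))
  have m20 : (⟨a * b * a, hb'D⟩ : D) ∈
      span L (lineOf ⟨a, ha⟩ ⟨b, hb⟩ ∪ lineOf ⟨a, ha⟩ ⟨d, hd⟩) :=
    hsub (Or.inl (by rw [hlb]; exact Or.inr (Or.inr rfl)))
  have m01 : (⟨d, hd⟩ : D) ∈ span L (lineOf ⟨a, ha⟩ ⟨b, hb⟩ ∪ lineOf ⟨a, ha⟩ ⟨d, hd⟩) :=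
    hsub (Or.inr (by rw [hld]; exact Or.inr (Or.inl rfl)))
  have m02 : (⟨a * d * a, hd'D⟩ : D) ∈
      span L (lineOf ⟨a, ha⟩ ⟨b, hb⟩ ∪ lineOf ⟨a, ha⟩ ⟨d, hd⟩) :=
    hsub (Or.inr (by rw [hld]; exact Or.inr (Or.inr rfl)))
  have m22 : (⟨b * d * b, hD.conj _ hb _ hd⟩ : D) ∈
      span L (lineOf ⟨a, ha⟩ ⟨b, hb⟩ ∪ lineOf ⟨a, ha⟩ ⟨d, hd⟩) :=
    third_mem_subspace hsp m10 m01 ((third_iff hD _ _ _).mpr ⟨hbd, rfl⟩)
  have m21 : (⟨b * (a * d * a) * b, hD.conj _ hb _ hd'D⟩ : D) ∈
      span L (lineOf ⟨a, ha⟩ ⟨b, hb⟩ ∪ lineOf ⟨a, ha⟩ ⟨d, hd⟩) :=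
    third_mem_subspace hsp m10 m02 ((third_iff hD _ _ _).mpr ⟨hbd', rfl⟩)
  have m12 : (⟨a * b * a * d * (a * b * a), hD.conj _ hb'D _ hd⟩ : D) ∈
      span L (lineOf ⟨a, ha⟩ ⟨b, hb⟩ ∪ lineOf ⟨a, ha⟩ ⟨d, hd⟩) :=
    third_mem_subspace hsp m20 m01 ((third_iff hD _ _ _).mpr ⟨hb'd, rfl⟩)
  have m11 : (⟨a * b * a * (a * d * a) * (a * b * a), hD.conj _ hb'D _ hd'D⟩ : D) ∈
      span L (lineOf ⟨a, ha⟩ ⟨b, hb⟩ ∪ lineOf ⟨a, ha⟩ ⟨d, hd⟩) :=
    third_mem_subspace hsp m20 m02 ((third_iff hD _ _ _).mpr ⟨hb'd', rfl⟩)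
  refine plane_iso hD affinePlaneThree (fun u => phi a b d (u 0) (u 1)) (fun u => pD _ _)
    ?_ ?_ ?_ affine_line_triple _ ?_ ?_
  · intro u v h
    obtain ⟨h0, h1⟩ := hinj _ _ _ _ h
    exact fin2_ext h0 h1
  · intro u v w
    constructor
    · intro hT
      have hw : w = -u - v := affine_tRel (Or.inl hT)
      refine ⟨fun hc => hT.2.2.1 ?_, ?_⟩
      · obtain ⟨h0, h1⟩ := hcomm _ _ _ _ hc
        exact fin2_ext h0 h1
      · rw [hw]
        exact (hQ (u 0) (u 1) (v 0) (v 1)).symm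
    · rintro ⟨hc, hw⟩
      have huv : u ≠ v := by
        rintro rfl
        exact hc (Commute.refl _)
      have hw' : w = -u - v := by
        have hw2 : phi a b d (w 0) (w 1) = phi a b d (-u 0 - v 0) (-u 1 - v 1) := by
          rw [← hQ (u 0) (u 1) (v 0) (v 1)]
          exact hw
        obtain ⟨h0, h1⟩ := hinj _ _ _ _ hw2
        exact fin2_ext h0 h1
      rw [hw']
      exact third_affine huv
  · intro u v _
    exact ⟨-u - v, (hQ (u 0) (u 1) (v 0) (v 1)).symm⟩
  · rintro x (hx | hx)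
    · rw [hlb] at hx
      rcases hx with h | h | h
      · exact ⟨![0, 0], h.symm⟩
      · exact ⟨![1, 0], h.symm⟩
      · exact ⟨![2, 0], h.symm⟩
    · rw [hld] at hx
      rcases hx with h | h | h
      · exact ⟨![0, 0], h.symm⟩
      · exact ⟨![0, 1], h.symm⟩
      · exact ⟨![0, 2], h.symm⟩
  · have key : ∀ (i j : ZMod 3) (h : phi a b d i j ∈ D), (⟨phi a b d i j, h⟩ : D) ∈
        span L (lineOf ⟨a, ha⟩ ⟨b, hb⟩ ∪ lineOf ⟨a, ha⟩ ⟨d, hd⟩) := by
      intro i j
      rcases zmod3_cases i with rfl | rfl | rfl <;> rcases zmod3_cases j with rfl | rfl | rfl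
      · intro _; exact m00
      · intro _; exact m01
      · intro _; exact m02
      · intro _; exact m10
      · intro _; exact m11
      · intro _; exact m12
      · intro _; exact m20
      · intro _; exact m21
      · intro _; exact m22
    intro u
    exact key (u 0) (u 1) _

end Cfsg.Agent.Lib.Helper89.Fischer
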