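import Cfsg.Agent.Lib.Helper89.GolaySub
import Cfsg.Agent.Lib.Helper26.SextetTab

/-!
# Indicator words, covering radius of the Golay code, list form of 5-transitivity of `M24`
-/

set_option autoImplicit false

namespace Cfsg.Agent.Lib.Helper89.GolayCover

open Cfsg Cfsg.Agent.Lib.Helper89.GolaySub
open scoped Pointwise

/-- indicator word of a set of points -/
def ind (s : Finset GolayPt) : GolayPt → ZMod 2 := fun p => if p ∈ s then 1 else 0

theorem support_ind (s : Finset GolayPt) : support₂ (ind s) = s := by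
  ext p; simp [support₂, ind]

theorem ind_support (w : GolayPt → ZMod 2) : ind (support₂ w) = w :=
  eq_of_support (support_ind _)

theorem add_self_word (v : GolayPt → ZMod 2) : v + v = 0 := by
  funext p; exact CharTwo.add_self_eq_zero (v p)

theorem sub_eq_add_word (v w : GolayPt → ZMod 2) : v - w = v + w := by
  funext p; exact CharTwo.sub_eq_add (v p) (w p)

theorem act_ind (σ : Equiv.Perm GolayPt) (s : Finset GolayPt) :
    (fun p => ind s (σ.symm p)) = ind (σ • s) := by
  apply eq_of_support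
  rw [Cfsg.Agent.Lib.Helper7.M24Mem.support_comp, support_ind, support_ind]

theorem ind_insert {p : GolayPt} {t : Finset GolayPt} (hp : p ∉ t) :
    ind (insert p t) = ind {p} + ind t := by
  funext x
  simp only [ind, Pi.add_apply, Finset.mem_insert, Finset.mem_singleton]
  by_cases h1 : x = p
  · subst h1; simp [hp]
  · simp [h1]

theorem ind_empty : ind ∅ = 0 := by funext x; simp [ind]

theorem ind_univ : ind Finset.univ = 1 := by funext x; simp [ind]

theorem ind_single_apply (p x : GolayPt) : ind {p} x = if x = p then 1 else 0 := by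
  simp [ind]

/-- the code is invariant under `M24` -/
theorem act_mem_code {σ : Equiv.Perm GolayPt} (hσ : σ ∈ M24) {w : GolayPt → ZMod 2}
    (hw : w ∈ golayCode) : (fun p => w (σ.symm p)) ∈ golayCode := by
  have h1 : σ • support₂ w ∈ supports (golayCode : Set (GolayPt → ZMod 2)) :=
    Cfsg.Agent.Lib.Helper7.M24Mem.smul_mem_supports hσ ⟨w, hw, rfl⟩
  obtain ⟨w', hw', h2⟩ := h1
  have : (fun p => w (σ.symm p)) = w' := by
    apply eq_of_support
    rw [Cfsg.Agent.Lib.Helper7.M24Mem.support_comp, h2]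
  rw [this]; exact hw'

theorem act_mul (σ τ : Equiv.Perm GolayPt) (w : GolayPt → ZMod 2) :
    (fun p => w ((σ * τ).symm p)) = (fun p => (fun q => w (τ.symm q)) (σ.symm p)) := rfl

theorem act_sub (σ : Equiv.Perm GolayPt) (v w : GolayPt → ZMod 2) :
    (fun p => (v - w) (σ.symm p)) = (fun p => v (σ.symm p)) - (fun p => w (σ.symm p)) := rfl

theorem act_inv_act (σ : Equiv.Perm GolayPt) (w : GolayPt → ZMod 2) :
    (fun p => (fun q => w (σ.symm q)) (σ⁻¹.symm p)) = w := by
  funext p
  show w (σ.symm (σ⁻¹.symm p)) = w p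
  congr 1
  show σ⁻¹ (σ⁻¹⁻¹ p) = p
  simp

theorem act_act_inv (σ : Equiv.Perm GolayPt) (w : GolayPt → ZMod 2) :
    (fun p => (fun q => w (σ⁻¹.symm q)) (σ.symm p)) = w := by
  funext p
  show w (σ⁻¹.symm (σ.symm p)) = w p
  congr 1
  show σ⁻¹⁻¹ (σ⁻¹ p) = p
  simp

/-- membership in the code is invariant under `M24` (iff form) -/
theorem act_mem_code_iff {σ : Equiv.Perm GolayPt} (hσ : σ ∈ M24) {w : GolayPt → ZMod 2} :
    (fun p => w (σ.symm p)) ∈ golayCode ↔ w ∈ golayCode := by
  refine ⟨fun h => ?_, act_mem_code hσ⟩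
  have := act_mem_code (M24.inv_mem hσ) h
  rwa [act_inv_act] at this

section cover

open Cfsg.Agent.Lib.Helper27.Bits Cfsg.Agent.Lib.Helper27.Golay Cfsg.Agent.Lib.Helper27.M24
  Cfsg.Agent.Lib.Helper27.Coset Cfsg.Agent.Lib.Helper26.SextetTab Cfsg.Agent.Lib.Helper27.Fast

theorem ind_fsOf (m : ℕ) : ind (fsOf m) = wordOf m :=
  eq_of_support (by rw [support_ind, support_wordOf])

/-- Covering radius 4: every word differs from a code word in at most 4 places. -/
theorem exists_leader (w : GolayPt → ZMod 2) :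
    ∃ s : Finset GolayPt, s.card ≤ 4 ∧ w - ind s ∈ golayCode := by
  obtain ⟨m, hm, rfl⟩ := exists_wordOf w
  have hk := syn_lt hm
  by_cases hl : light (syn m) = true
  · obtain ⟨h1, h2⟩ := light_spec hk hl
    refine ⟨fsOf (lead (syn m)), by rw [card_setOf_F]; omega, ?_⟩
    rw [ind_fsOf, sub_mem_iff hm (lead_lt _), h2]
  · have hl' : light (syn m) = false := by simpa using hl
    obtain ⟨h1, -, -⟩ := heavy_spec hk hl'
    obtain ⟨h3, h4⟩ := h1 0 (by norm_num)
    refine ⟨fsOf (sx 0 (syn m)), by rw [card_setOf_F, h3], ?_⟩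
    rw [ind_fsOf, sub_mem_iff hm (sx_lt _ _), h4]

end cover

theorem card_pt : Fintype.card GolayPt = 24 := by decide

/-- `M24` maps any injective list of at most five points onto any other of the same length. -/
theorem exists_map_lists (xs ys : List GolayPt) (hx : xs.Nodup) (hy : ys.Nodup)
    (hlen : xs.length = ys.length) (h5 : xs.length ≤ 5) :
    ∃ g ∈ M24, xs.map g = ys := by
  obtain ⟨g1, hg1, h1⟩ := Cfsg.Agent.Lib.Helper7.M24Main.exists_map_base5 xs hx h5
  obtain ⟨g2, hg2, h2⟩ := Cfsg.Agent.Lib.Helper7.M24Main.exists_map_base5 ys hy (hlen ▸ h5)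
  refine ⟨g2⁻¹ * g1, M24.mul_mem (M24.inv_mem hg2) hg1, ?_⟩
  have h3 : xs.map (g2⁻¹ * g1) = (xs.map g1).map (g2⁻¹ : Equiv.Perm GolayPt) := by
    rw [List.map_map]; rfl
  rw [h3, h1, hlen, ← h2, List.map_map]
  have h4 : ((⇑(g2⁻¹ : Equiv.Perm GolayPt)) ∘ ⇑g2) = id := by
    funext x; simp
  rw [h4, List.map_id]

theorem map_eq_self {α : Type*} (f : α → α) (l : List α) (h : l.map f = l) :
    ∀ x ∈ l, f x = x := by
  induction l with
  | nil => intro x hx; simp at hx
  | cons a l ih =>
    simp only [List.map_cons, List.cons.injEq] at h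
    intro x hx
    rcases List.mem_cons.mp hx with rfl | hx
    · exact h.1
    · exact ih h.2 x hx

theorem smul_eq_of_fix {g : Equiv.Perm GolayPt} {t : Finset GolayPt} (h : ∀ x ∈ t, g x = x) :
    g • t = t := by
  ext x
  rw [← Finset.inv_smul_mem_iff]
  constructor
  · intro hx
    have h1 := h _ hx
    have h2 : g (g⁻¹ • x) = x := by simp [Equiv.Perm.smul_def]
    rw [h2] at h1
    rw [h1]; exact hx
  · intro hx
    have h1 := h _ hx
    have h2 : g⁻¹ • x = x := by
      rw [Equiv.Perm.smul_def, Equiv.Perm.inv_eq_iff_eq]; exact h1.symm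
    rw [h2]; exact hx

theorem smul_single (g : Equiv.Perm GolayPt) (a : GolayPt) : g • ({a} : Finset GolayPt) = {g a} := by
  rw [Finset.smul_finset_singleton]; rfl

theorem act_ind_single (g : Equiv.Perm GolayPt) (a : GolayPt) :
    (fun p => ind {a} (g.symm p)) = ind {g a} := by
  rw [act_ind, smul_single]

end Cfsg.Agent.Lib.Helper89.GolayCover
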