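import Cfsg.Agent.Lib.Helper7.M12Main
import Cfsg.Agent.Lib.Helper7.M24Octad2

/-!
# Invariant subspaces of the Golay code under `M24`

`inv_sub_code`: an `M24`-invariant subspace of `golayCode` is `⊥`, the span of the all-ones
word, or the whole code.
-/

set_option autoImplicit false

namespace Cfsg.Agent.Lib.Helper89.GolaySub

open Cfsg Cfsg.Agent.Lib.Helper7.GolayBase Cfsg.Agent.Lib.Helper7.GolayCode
  Cfsg.Agent.Lib.Helper7.M24Mem Cfsg.Agent.Lib.Helper7.GolayRigid
  Cfsg.Agent.Lib.Helper7.M24Core Cfsg.Agent.Lib.Helper7.M24Octad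
  Cfsg.Agent.Lib.Helper7.M24Octad2 Cfsg.Agent.Lib.Helper7.GolayCount
  Cfsg.Agent.Lib.Helper7.M12Core Cfsg.Agent.Lib.Helper7.M12Main
open scoped Pointwise

theorem zmod2_cases (x : ZMod 2) : x = 0 ∨ x = 1 := by
  revert x; decide

/-- A binary word is determined by its support. -/
theorem eq_of_support {v w : GolayPt → ZMod 2} (h : support₂ v = support₂ w) : v = w := by
  funext p
  have hp : p ∈ support₂ v ↔ p ∈ support₂ w := by rw [h]
  simp only [support₂, Finset.mem_filter, Finset.mem_univ, true_and] at hp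
  rcases zmod2_cases (v p) with h1 | h1 <;> rcases zmod2_cases (w p) with h3 | h3
  · rw [h1, h3]
  · exfalso; rw [h1, h3] at hp; simp at hp
  · exfalso; rw [h1, h3] at hp; simp at hp
  · rw [h1, h3]

/-- Permuting the word of a mask. -/
theorem act_wd {σ : Equiv.Perm GolayPt} {a b : Nat} (h : σ • mk a = mk b) :
    (fun p => wd a (σ.symm p)) = wd b := by
  apply eq_of_support
  rw [support_comp, support_wd, support_wd, h]

theorem act_add (σ : Equiv.Perm GolayPt) (v w : GolayPt → ZMod 2) :
    (fun p => (v + w) (σ.symm p)) = (fun p => v (σ.symm p)) + (fun p => w (σ.symm p)) := rfl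

theorem act_one (σ : Equiv.Perm GolayPt) :
    (fun p => (1 : GolayPt → ZMod 2) (σ.symm p)) = 1 := rfl

theorem one_add_one_word : (1 : GolayPt → ZMod 2) + 1 = 0 := by
  funext p
  show (1 : ZMod 2) + 1 = 0
  decide

variable (W : Submodule (ZMod 2) (GolayPt → ZMod 2))

/-- An invariant subspace containing an octad word contains the code. -/
theorem code_le_of_octad
    (hW : ∀ σ ∈ M24, ∀ w ∈ W, (fun p => w (σ.symm p)) ∈ W)
    {c : Nat} (hc : c ∈ octadList) (hcW : wd c ∈ W) : golayCode ≤ W := by
  have hoct : ∀ c' ∈ octadList, wd c' ∈ W := by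
    intro c' hc'
    obtain ⟨g, hg, hgc⟩ := octad_transitive ((mem_octads_iff _).mpr ⟨c, hc, rfl⟩)
      ((mem_octads_iff _).mpr ⟨c', hc', rfl⟩)
    have := hW g hg _ hcW
    rwa [act_wd hgc] at this
  have hall : ∀ m ∈ spanList echelon, wd m ∈ W := by
    apply spanList_induction (P := fun m => wd m ∈ W)
    · rw [wd_zero]; exact W.zero_mem
    · intro a b ha hb; rw [wd_xor]; exact W.add_mem ha hb
    · intro b hb; exact hoct b (echelon_octads b hb)
  intro w hw
  obtain ⟨c, hc, rfl⟩ := (mem_golayCode_iff w).mp hw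
  exact hall c (codeList_sub_span_echelon c hc)

theorem o2_mem : (5279 : Nat) ∈ octadList :=
  mem_octadList.mpr ⟨inCode_sound (by decide +kernel), by decide +kernel⟩

theorem O_xor_o2_mem : O ^^^ 5279 ∈ octadList :=
  mem_octadList.mpr ⟨inCode_sound (by decide +kernel), by decide +kernel⟩

theorem d2_mem : (331518 : Nat) ∈ dodecadList :=
  mem_dodecadList.mpr ⟨inCode_sound (by decide +kernel), by decide +kernel⟩

theorem d0_xor_d2_mem : d0 ^^^ 331518 ∈ octadList :=
  mem_octadList.mpr ⟨inCode_sound (by decide +kernel), by decide +kernel⟩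

/-- An invariant subspace containing a dodecad word contains the code. -/
theorem code_le_of_dodecad
    (hW : ∀ σ ∈ M24, ∀ w ∈ W, (fun p => w (σ.symm p)) ∈ W)
    {c : Nat} (hc : c ∈ dodecadList) (hcW : wd c ∈ W) : golayCode ≤ W := by
  have hd0 : wd d0 ∈ W := by
    obtain ⟨g, hg, hgc⟩ := dodecad_to_base ((mem_dodecads_iff _).mpr ⟨c, hc, rfl⟩)
    have := hW g hg _ hcW
    rwa [act_wd hgc] at this
  have hd2 : wd 331518 ∈ W := by
    obtain ⟨g, hg, hgc⟩ := dodecad_to_base ((mem_dodecads_iff _).mpr ⟨331518, d2_mem, rfl⟩)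
    have h2 : g⁻¹ • mk d0 = mk 331518 := by rw [← hgc, inv_smul_smul]
    have := hW g⁻¹ (M24.inv_mem hg) _ hd0
    rwa [act_wd h2] at this
  have h3 : wd (d0 ^^^ 331518) ∈ W := by
    rw [wd_xor]; exact W.add_mem hd0 hd2
  exact code_le_of_octad W hW d0_xor_d2_mem h3

/-- An invariant subspace containing the complement of an octad word contains the code. -/
theorem code_le_of_cooctad
    (hW : ∀ σ ∈ M24, ∀ w ∈ W, (fun p => w (σ.symm p)) ∈ W)
    {c : Nat} (hc : c ∈ octadList) (hcW : wd c + 1 ∈ W) : golayCode ≤ W := by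
  have hoct : ∀ c' ∈ octadList, wd c' + 1 ∈ W := by
    intro c' hc'
    obtain ⟨g, hg, hgc⟩ := octad_transitive ((mem_octads_iff _).mpr ⟨c, hc, rfl⟩)
      ((mem_octads_iff _).mpr ⟨c', hc', rfl⟩)
    have := hW g hg _ hcW
    rwa [act_add, act_one, act_wd hgc] at this
  have h1 := hoct O O_mem
  have h2 := hoct 5279 o2_mem
  have h3 : wd (O ^^^ 5279) ∈ W := by
    rw [wd_xor]
    have h4 := W.add_mem h1 h2
    have h5 : wd O + 1 + (wd 5279 + 1) = wd O + wd 5279 := by
      rw [add_add_add_comm, one_add_one_word, add_zero]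
    rwa [h5] at h4
  exact code_le_of_octad W hW O_xor_o2_mem h3

theorem popc_xor_full {c : Nat} : popc (c ^^^ full) = 24 - popc c := by
  rw [← card_mk, ← card_mk, mk_xor, mk_full]
  have h : symmDiff (mk c) Finset.univ = (mk c)ᶜ := by
    ext p; simp [Finset.mem_symmDiff]
  rw [h, Finset.card_compl]
  rfl

/-- An `M24`-invariant subspace of the code is zero, the span of the all-ones word, or the
whole code. -/
theorem inv_sub_code
    (hW : ∀ σ ∈ M24, ∀ w ∈ W, (fun p => w (σ.symm p)) ∈ W) (hWC : W ≤ golayCode) :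
    W = ⊥ ∨ W = Submodule.span (ZMod 2) {fun _ => (1 : ZMod 2)} ∨ W = golayCode := by
  by_cases hall : ∀ w ∈ W, w = 0 ∨ w = 1
  · by_cases h1 : (1 : GolayPt → ZMod 2) ∈ W
    · right; left
      apply le_antisymm
      · intro w hw
        rcases hall w hw with rfl | rfl
        · exact Submodule.zero_mem _
        · exact Submodule.subset_span rfl
      · rw [Submodule.span_le, Set.singleton_subset_iff]
        exact h1
    · left
      rw [eq_bot_iff]
      intro w hw
      rcases hall w hw with rfl | rfl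
      · exact Submodule.zero_mem _
      · exact absurd hw h1
  · right; right
    push Not at hall
    obtain ⟨w, hw, hw0, hw1⟩ := hall
    apply le_antisymm hWC
    obtain ⟨c, hc, rfl⟩ := (mem_golayCode_iff w).mp (hWC hw)
    rcases weights c hc with h | h | h | h | h
    · exfalso; apply hw0
      rw [weight_zero c hc h, wd_zero]
    · exact code_le_of_octad W hW (mem_octadList.mpr ⟨hc, h⟩) hw
    · exact code_le_of_dodecad W hW (mem_dodecadList.mpr ⟨hc, h⟩) hw
    · have hc' : c ^^^ full ∈ octadList :=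
        mem_octadList.mpr ⟨xor_mem_codeList hc full_mem_codeList, by rw [popc_xor_full, h]⟩
      apply code_le_of_cooctad W hW hc'
      rw [wd_xor, wd_full, add_assoc, one_add_one_word, add_zero]
      exact hw
    · exfalso; apply hw1
      rw [weight_full c hc h, wd_full]

end Cfsg.Agent.Lib.Helper89.GolaySub
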