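import Mathlib
import Cfsg.Agent.Lib.Helper40.HPStmt
import Cfsg.Agent.Lib.Helper38.HypHYPCNT
import Cfsg.Agent.Lib.Helper44.OTyp1
import Cfsg.Agent.Lib.Helper44.OTyp3
import Cfsg.Agent.Lib.Helper44.NegPairs

/-!
# S5974 / HYPCNTJ (helper89): the number of hyperbolic systems of the plus form

Port of `Helper38.HypHYPCNT` (odd dimension) to hyperbolic spaces: the perp of a hyperbolic pair
in a hyperbolic space is hyperbolic (count of singular vectors), then the same induction.
-/

set_option autoImplicit false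

namespace Cfsg.Agent.Lib.Helper89.HPHYPCNTJ

open Module QuadraticMap
open Cfsg.Agent.Lib.Helper44.Split Cfsg.Agent.Lib.Helper44.QSpace
open Cfsg.Agent.Lib.Helper44.QClass Cfsg.Agent.Lib.Helper44.QBasis
open Cfsg.Agent.Lib.Helper44.SpinCount Cfsg.Agent.Lib.Helper44.OTyp1
open Cfsg.Agent.Lib.Helper38.HypHYPCNT

universe u

section abstract

variable {F : Type*} [Field F] {V : Type u} [AddCommGroup V] [Module F V]

theorem card_ne_add_one [Finite V] (Q : QuadraticForm F V) :
    Nat.card {v : V // Q v = 0 ∧ v ≠ 0} + 1 = Nat.card {v : V // Q v = 0} := by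
  classical
  have e := Nat.card_congr (Equiv.sumCompl (fun x : {v : V // Q v = 0} => (x : V) = 0))
  rw [Nat.card_sum] at e
  rw [← e]
  have h1 : Nat.card {x : {v : V // Q v = 0} // (x : V) = 0} = 1 := by
    rw [Nat.card_eq_one_iff_unique]
    refine ⟨⟨?_⟩, ⟨⟨⟨0, QuadraticMap.map_zero Q⟩, rfl⟩⟩⟩
    rintro ⟨⟨a, ha⟩, ha'⟩ ⟨⟨b, hb⟩, hb'⟩
    apply Subtype.ext
    apply Subtype.ext
    show a = b
    rw [show a = 0 from ha', show b = 0 from hb']
  have h2 : Nat.card {x : {v : V // Q v = 0} // ¬ (x : V) = 0}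
      = Nat.card {v : V // Q v = 0 ∧ v ≠ 0} :=
    Nat.card_congr (Equiv.subtypeSubtypeEquivSubtypeInter (fun v : V => Q v = 0)
      (fun v => ¬ v = 0))
  rw [h1, h2]
  omega

/-- the perp of a hyperbolic pair in a hyperbolic space is hyperbolic -/
theorem hyp_perp [Fintype F] [FiniteDimensional F V] {Q : QuadraticForm F V} (hS : Sep Q)
    {k : ℕ} (hV : finrank F V = 2 * (k + 1)) (hH : ∃ e f : Fin (k + 1) → V, IsHyp Q e f)
    {e₀ f₀ : V} (he : Q e₀ = 0) (hf : Q f₀ = 0) (hef : polar Q e₀ f₀ = 1) :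
    ∃ e f : Fin k → perp2 (polarBilin Q) e₀ f₀,
      IsHyp (res Q (perp2 (polarBilin Q) e₀ f₀)) e f := by
  obtain ⟨e, f, hH⟩ := hH
  cases k with
  | zero =>
    exact ⟨Fin.elim0, Fin.elim0, fun i => i.elim0, fun i => i.elim0, fun i => i.elim0,
      fun i => i.elim0, fun i => i.elim0⟩
  | succ k' =>
    have hfin : finrank F (perp2 (polarBilin Q) e₀ f₀) = 2 * (k' + 1) := by
      have := finrank_perp2' he hf hef
      omega
    have hS' := sep_perp2 hS he hf hef
    rcases exists_hyp_even k' _ (res Q (perp2 (polarBilin Q) e₀ f₀)) hfin hS' with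
      h | ⟨e', f', x, y, ζ, hH', hE, horth⟩
    · exact h
    · exfalso
      have hq : 2 ≤ Fintype.card F := Fintype.one_lt_card
      have hHV := isHyp_cons he hf hef hH'
      have hEV : IsEll Q (x : V) (y : V) ζ := ⟨hE.1, hE.2.1, hE.2.2.1, hE.2.2.2⟩
      have hx := (mem_perp2 _ _ _ _).mp x.2
      have hy := (mem_perp2 _ _ _ _).mp y.2
      have horthV : ∀ i : Fin (k' + 1),
          polar Q ((Fin.cons e₀ (fun i => (e' i : V)) : Fin (k' + 1) → V) i) (x : V) = 0 ∧
          polar Q ((Fin.cons e₀ (fun i => (e' i : V)) : Fin (k' + 1) → V) i) (y : V) = 0 ∧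
          polar Q ((Fin.cons f₀ (fun i => (f' i : V)) : Fin (k' + 1) → V) i) (x : V) = 0 ∧
          polar Q ((Fin.cons f₀ (fun i => (f' i : V)) : Fin (k' + 1) → V) i) (y : V) = 0 := by
        intro i
        induction i using Fin.cases with
        | zero =>
          simp only [Fin.cons_zero]
          exact ⟨hx.1, hy.1, hx.2, hy.2⟩
        | succ j =>
          simp only [Fin.cons_succ]
          exact horth j
      have c1 := card_P Q hH hV
      have c2 := card_M Q hHV hEV horthV hV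
      rw [c2] at c1
      exact NP_ne_NM _ (k' + 1) hq c1.symm

theorem card_HPp [Fintype F] [FiniteDimensional F V] (Q : QuadraticForm F V) (k : ℕ)
    (hV : finrank F V = 2 * (k + 1)) (hS : Sep Q)
    (hH : ∃ e f : Fin (k + 1) → V, IsHyp Q e f) :
    Nat.card (HP Q) * Fintype.card F ^ 2
      = (Fintype.card F ^ (k + 1) - 1) * (Fintype.card F ^ k + 1)
          * Fintype.card F ^ (2 * (k + 1)) := by
  classical
  have : Finite V := Module.finite_of_finite F
  have eqv : HP Q ≃ Σ e : {v : V // Q v = 0 ∧ v ≠ 0},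
      {f : V // Q f = 0 ∧ polar Q (e : V) f = 1} :=
    { toFun := fun p => ⟨⟨p.1.1, p.2.1, by
          intro h0
          have := p.2.2.2
          rw [h0] at this
          simp at this⟩, ⟨p.1.2, p.2.2.1, p.2.2.2⟩⟩
      invFun := fun s => ⟨(s.1.1, s.2.1), s.1.2.1, s.2.2.1, s.2.2.2⟩
      left_inv := fun p => rfl
      right_inv := fun s => rfl }
  haveI : Fintype {v : V // Q v = 0 ∧ v ≠ 0} := Fintype.ofFinite _
  rw [Nat.card_congr eqv, Nat.card_sigma, Finset.sum_mul]
  have hcV : Nat.card V = Fintype.card F ^ (2 * (k + 1)) := by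
    rw [Module.natCard_eq_pow_finrank (K := F), hV, Nat.card_eq_fintype_card]
  have hfib : ∀ e : {v : V // Q v = 0 ∧ v ≠ 0},
      Nat.card {f : V // Q f = 0 ∧ polar Q (e : V) f = 1} * Fintype.card F ^ 2
        = Fintype.card F ^ (2 * (k + 1)) := by
    intro e
    rw [pow_two, ← mul_assoc, card_fibre Q hS e.2.1 e.2.2, hcV]
  rw [Finset.sum_congr rfl (fun e _ => hfib e), Finset.sum_const, Finset.card_univ, smul_eq_mul,
    Fintype.card_eq_nat_card]
  congr 1
  -- the number of nonzero singular vectors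
  obtain ⟨e, f, hH⟩ := hH
  have hq : 0 < Fintype.card F := Fintype.card_pos
  obtain ⟨B, hB⟩ : ∃ B, Fintype.card F ^ (k + 1) = B + 1 :=
    ⟨Fintype.card F ^ (k + 1) - 1, by
      have := Nat.one_le_pow (k + 1) (Fintype.card F) hq
      omega⟩
  have hSg := card_P Q hH hV
  rw [pow_succ (Fintype.card F) (k + 1), hB, Nat.add_sub_cancel] at hSg
  have hBA : B + 1 = Fintype.card F ^ k * Fintype.card F := by rw [← hB, pow_succ]
  have hS2 : Nat.card {v : V // Q v = 0} * Fintype.card F
      = (B + 1 + B * Fintype.card F ^ k) * Fintype.card F := by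
    rw [hSg, hBA]
    ring
  have hS3 : Nat.card {v : V // Q v = 0} = B + 1 + B * Fintype.card F ^ k :=
    Nat.eq_of_mul_eq_mul_right hq hS2
  have hne := card_ne_add_one Q
  rw [hS3] at hne
  rw [hB, Nat.add_sub_cancel]
  have h5 : Nat.card {v : V // Q v = 0 ∧ v ≠ 0} = B + B * Fintype.card F ^ k := by omega
  rw [h5]
  ring

theorem card_HSp [Fintype F] (h : ℕ) : ∀ (k : ℕ) (V : Type u) [AddCommGroup V] [Module F V]
    [FiniteDimensional F V] (Q : QuadraticForm F V), finrank F V = 2 * k → Sep Q →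
    (∃ e f : Fin k → V, IsHyp Q e f) → h ≤ k →
    Nat.card (HS Q h) * Fintype.card F ^ (2 * h)
      = ∏ t ∈ Finset.range h,
          ((Fintype.card F ^ (k - t) - 1) * (Fintype.card F ^ (k - t - 1) + 1)
            * Fintype.card F ^ (2 * (k - t))) := by
  induction h with
  | zero =>
    intro k V _ _ _ Q hV hS hH hk
    have : Nat.card (HS Q 0) = 1 := by
      rw [Nat.card_eq_one_iff_unique]
      refine ⟨⟨?_⟩, ⟨⟨(Fin.elim0, Fin.elim0), fun i => i.elim0, fun i => i.elim0,
        fun i => i.elim0, fun i => i.elim0, fun i => i.elim0⟩⟩⟩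
      rintro ⟨⟨a, b⟩, _⟩ ⟨⟨a', b'⟩, _⟩
      apply Subtype.ext
      apply Prod.ext <;> exact Subsingleton.elim _ _
    rw [this]
    simp
  | succ h ih =>
    intro k V _ _ _ Q hV hS hH hk
    classical
    have : Finite V := Module.finite_of_finite F
    obtain ⟨k', rfl⟩ : ∃ k', k = k' + 1 := ⟨k - 1, by omega⟩
    have : Fintype (HP Q) := Fintype.ofFinite _
    have e := Nat.card_congr (Equiv.sigmaFiberEquiv (fst Q h))
    rw [← e, Nat.card_sigma]
    have hfib : ∀ p : HP Q, Nat.card {s : HS Q (h + 1) // fst Q h s = p}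
        * Fintype.card F ^ (2 * h)
        = ∏ t ∈ Finset.range h,
          ((Fintype.card F ^ (k' - t) - 1) * (Fintype.card F ^ (k' - t - 1) + 1)
            * Fintype.card F ^ (2 * (k' - t))) := by
      intro p
      rw [Nat.card_congr (fibEquiv Q h p)]
      exact ih k' _ (res Q _) (by have := finrank_perp2' p.2.1 p.2.2.1 p.2.2.2; omega)
        (sep_perp2 hS p.2.1 p.2.2.1 p.2.2.2) (hyp_perp hS hV hH p.2.1 p.2.2.1 p.2.2.2)
        (by omega)
    have h2h : 2 * (h + 1) = 2 * h + 2 := by ring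
    rw [Finset.prod_range_succ', h2h, pow_add, ← mul_assoc, Finset.sum_mul,
      Finset.sum_congr rfl (fun p _ => hfib p), Finset.sum_const, Finset.card_univ, smul_eq_mul,
      Fintype.card_eq_nat_card]
    have hP := card_HPp Q k' hV hS hH
    have hprod : ∏ t ∈ Finset.range h, ((Fintype.card F ^ (k' + 1 - (t + 1)) - 1)
          * (Fintype.card F ^ (k' + 1 - (t + 1) - 1) + 1)
          * Fintype.card F ^ (2 * (k' + 1 - (t + 1))))
        = ∏ t ∈ Finset.range h, ((Fintype.card F ^ (k' - t) - 1)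
          * (Fintype.card F ^ (k' - t - 1) + 1) * Fintype.card F ^ (2 * (k' - t))) := by
      apply Finset.prod_congr rfl
      intro t _
      rw [Nat.add_sub_add_right]
    rw [hprod, Nat.sub_zero, Nat.add_sub_cancel, ← hP]
    ring

end abstract

open Cfsg.Agent.Lib.Helper44.NegPairs in
theorem plus_hyp {F : Type u} [Field F] [Fintype F] (d : ℕ) :
    ∃ e f : Fin d → (Fin d ⊕ Fin d → F), IsHyp (plusQ d F) e f := by
  classical
  cases d with
  | zero =>
    exact ⟨Fin.elim0, Fin.elim0, fun i => i.elim0, fun i => i.elim0, fun i => i.elim0,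
      fun i => i.elim0, fun i => i.elim0⟩
  | succ k =>
    have hV : finrank F (Fin (k + 1) ⊕ Fin (k + 1) → F) = 2 * (k + 1) := by
      rw [Module.finrank_fintype_fun_eq_card]
      simp
      ring
    have hS : Sep (plusQ (k + 1) F) := sep_plusQ (k + 1)
    rcases exists_hyp_even k _ (plusQ (k + 1) F) hV hS with
      h | ⟨e, f, x, y, ζ, hH, hE, horth⟩
    · exact h
    · exfalso
      have hq : 2 ≤ Fintype.card F := Fintype.one_lt_card
      have c1 := Cfsg.Agent.Lib.Helper44.OTyp3.sing_plus (F := F) k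
      have c2 := card_M (plusQ (k + 1) F) hH hE horth hV
      rw [c2] at c1
      exact NP_ne_NM _ k hq c1.symm

open Cfsg.Agent.Lib.Helper44.NegPairs in
theorem main : Cfsg.Agent.Lib.Helper40.HPStmt.HypCntJ.{u} := by
  intro F _ _ d h hhd r hr hrq hdvd
  classical
  have hV : finrank F (Cfsg.Agent.Lib.Helper94.OPStmt.P d → F) = 2 * d := by
    rw [Module.finrank_fintype_fun_eq_card]
    simp
    ring
  have hS : Sep (plusQ d F) := sep_plusQ d
  have hc := card_HSp (F := F) h d (Cfsg.Agent.Lib.Helper94.OPStmt.P d → F)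
    (plusQ d F) hV hS (plus_hyp d) hhd
  have hcard : Nat.card (Cfsg.Agent.Lib.Helper40.HPStmt.HSysJ d F h)
      = Nat.card (HS (plusQ d F) h) :=
    Nat.card_congr (Equiv.subtypeEquivRight (fun ef =>
      ⟨fun ⟨a, b, c, d, e⟩ => ⟨a, b, e, c, d⟩, fun ⟨a, b, e, c, d⟩ => ⟨a, b, c, d, e⟩⟩))
  have hprod : r ∣ ∏ t ∈ Finset.range h, ((Fintype.card F ^ (d - t) - 1)
      * (Fintype.card F ^ (d - t - 1) + 1) * Fintype.card F ^ (2 * (d - t))) := by
    rw [← hc, ← hcard]
    exact Dvd.dvd.mul_right hdvd _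
  obtain ⟨t, ht, hdt⟩ := (Nat.Prime.prime hr).exists_mem_finset_dvd hprod
  refine ⟨t, Finset.mem_range.mp ht, ?_⟩
  rcases (Nat.Prime.dvd_mul hr).mp hdt with h1 | h1
  · exact h1
  · exact absurd (hr.dvd_of_dvd_pow h1) hrq

end Cfsg.Agent.Lib.Helper89.HPHYPCNTJ
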