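import Mathlib
import Cfsg.Agent.Lib.Helper44.MFldStmt
import Cfsg.Agent.Lib.Helper62.OFldMc1
import Cfsg.Agent.Lib.Helper44.Inv8

set_option autoImplicit false

/-! Piece NH of S2737: a form `d * Q(H v)` descended from a minus-type form is never
hyperbolic of rank `m + 1`. -/

namespace Cfsg.Agent.Lib.Helper89.MFldNH

open Matrix Module QuadraticMap
open Cfsg.Agent.Lib.Helper45.OmegaAut Cfsg.Agent.Lib.Helper43.H90Fin
open Cfsg.Agent.Lib.Helper44.MFld0 Cfsg.Agent.Lib.Helper44.MaxTS
  Cfsg.Agent.Lib.Helper44.NegPairs Cfsg.Agent.Lib.Helper44.QSpace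
  Cfsg.Agent.Lib.Helper44.QClass
open Cfsg.Agent.Lib.Helper44.MFldStmt
open Cfsg.Agent.Lib.Helper62.OFldMc1

universe u

theorem main (hS : SepMinus.{u}) : NonHypMinus.{u} := by
  intro F _ _ m a b hab σ d H P₀ hP₀ hex
  obtain ⟨e, f, hH⟩ := hex
  obtain ⟨g1, g2, g3, g4, g5⟩ := hH
  set P : QuadraticForm F (MI m → F) :=
    (d : F) • ((minusQ m F a b).comp (Matrix.toLin' (H : Matrix (MI m) (MI m) F))) with hP
  have hPv : ∀ w : MI m → F, P w = (d : F) * minusQ m F a b
      ((H : Matrix (MI m) (MI m) F) *ᵥ w) := by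
    intro w
    rw [hP]
    simp [QuadraticMap.comp_apply, Matrix.toLin'_apply]
  have hP₀' : ∀ v : MI m → ↥(fixF σ), ((P₀ v : ↥(fixF σ)) : F) = P (up σ v) := by
    intro v
    rw [hP₀ v, hPv, coe_minusQ]
    rfl
  set E : Fin (m + 1) → (MI m → F) := fun i => up σ (e i) with hE
  set Fv : Fin (m + 1) → (MI m → F) := fun i => up σ (f i) with hFv
  have hE1 : ∀ i, P (E i) = 0 := by
    intro i
    rw [hE, ← hP₀', g1 i]
    rfl
  have hE2 : ∀ i j, polar P (E i) (E j) = 0 := by
    intro i j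
    rw [hE, polar_up σ P P₀ hP₀', g4 i j]
    rfl
  have hE3 : ∀ i j, polar P (E i) (Fv j) = if i = j then 1 else 0 := by
    intro i j
    rw [hE, hFv, polar_up σ P P₀ hP₀', g3 i j]
    split_ifs <;> simp
  have hli : LinearIndependent F E := by
    rw [Fintype.linearIndependent_iff]
    intro c hc j
    have h := congrArg (fun z => polar P z (Fv j)) hc
    simp only [Cfsg.Agent.Lib.Helper44.QBasis.flip_sum_smul, polar_zero_left, hE3] at h
    simpa using h
  set W : Submodule F (MI m → F) := Submodule.span F (Set.range E) with hW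
  have hWrank : finrank F ↥W = m + 1 := by
    rw [hW, finrank_span_eq_card hli, Fintype.card_fin]
  have hWts : ∀ v ∈ W, P v = 0 := ts_span P E hE1 hE2
  -- push forward along `H`
  set L : (MI m → F) →ₗ[F] (MI m → F) := Matrix.toLin' (H : Matrix (MI m) (MI m) F) with hL
  have hLinj : Function.Injective L := by
    intro x y hxy
    have h1 : (H : Matrix (MI m) (MI m) F) *ᵥ x = (H : Matrix (MI m) (MI m) F) *ᵥ y := by
      simpa [hL, Matrix.toLin'_apply] using hxy
    have h2 := congrArg (fun z => ((H⁻¹ : GL (MI m) F) : Matrix (MI m) (MI m) F) *ᵥ z) h1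
    simp only [Matrix.mulVec_mulVec] at h2
    have h3 : ((H⁻¹ : GL (MI m) F) : Matrix (MI m) (MI m) F) * (H : Matrix (MI m) (MI m) F) = 1 := by
      rw [← Matrix.GeneralLinearGroup.coe_mul, inv_mul_cancel]
      rfl
    rw [h3, Matrix.one_mulVec, Matrix.one_mulVec] at h2
    exact h2
  have hW'rank : finrank F ↥(W.map L) = m + 1 := by
    rw [← hWrank]
    exact (Submodule.equivMapOfInjective L hLinj W).symm.finrank_eq
  have hW'ts : ∀ w ∈ W.map L, minusQ m F a b w = 0 := by
    rintro w ⟨v, hv, rfl⟩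
    have h1 := hWts v hv
    rw [hPv] at h1
    have hd : (d : F) ≠ 0 := d.ne_zero
    have h2 := (mul_eq_zero.1 h1).resolve_left hd
    simpa [hL, Matrix.toLin'_apply] using h2
  have hle := Cfsg.Agent.Lib.Helper44.Inv8.minus_ts_le (hS F m a b hab) hab hW'ts
  have h3 : m + 1 ≤ m := by
    rw [← hW'rank]
    exact hle
  omega

end Cfsg.Agent.Lib.Helper89.MFldNH
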