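import Mathlib
import Cfsg.Agent.Lib.Helper83.S51Stmt

/-! helper89: pure core of piece ZCEN of the S1351 gap (part B).  An element `z ∈ E` with
`z ^ q = 1`, `q ∤ |E'|`, `E'` abelian, centralizing every subgroup of prime order of `E'`,
is central in `E`. -/

set_option autoImplicit false
universe u

namespace Cfsg.Agent.Lib.Helper89.S51ZCENCore

open Cfsg Cfsg.Agent.Lib.Helper83.S51Stmt

theorem core (hAb : AbAut.{u}) {G : Type u} [Group G] [Finite G] (E : Subgroup G) (z : G) (q : ℕ)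
    (hq : q.Prime) (hzE : z ∈ E) (hzq : z ^ q = 1)
    (hab : ∀ a ∈ (⁅E, E⁆ : Subgroup G), ∀ b ∈ (⁅E, E⁆ : Subgroup G), a * b = b * a)
    (hqA : ¬ q ∣ Nat.card (⁅E, E⁆ : Subgroup G))
    (hpr : ∀ R' : Subgroup G, R' ≤ ⁅E, E⁆ → (Nat.card R').Prime → ∀ u ∈ R', z * u = u * z) :
    ∀ e ∈ E, z * e = e * z := by
  have hconj : ∀ w ∈ E, ∀ h ∈ (⁅E, E⁆ : Subgroup G), w * h * w⁻¹ ∈ (⁅E, E⁆ : Subgroup G) := by
    intro w hw h hh
    have hmap : (⁅E, E⁆ : Subgroup G).map (MulAut.conj w).toMonoidHom ≤ ⁅E, E⁆ := by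
      rw [Subgroup.map_commutator]
      have hE : E.map (MulAut.conj w).toMonoidHom ≤ E := by
        rintro x ⟨e, he, rfl⟩
        simp only [MulEquiv.coe_toMonoidHom, MulAut.conj_apply]
        exact E.mul_mem (E.mul_mem hw he) (E.inv_mem hw)
      exact Subgroup.commutator_mono hE hE
    have := hmap (Subgroup.mem_map_of_mem _ hh)
    simpa using this
  have hnorm : z ∈ Subgroup.normalizer ((⁅E, E⁆ : Subgroup G) : Set G) := by
    rw [Subgroup.mem_normalizer_iff]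
    intro h
    constructor
    · exact hconj z hzE h
    · intro hh
      have := hconj z⁻¹ (E.inv_mem hzE) _ hh
      simpa [mul_assoc] using this
  have hcen : ∀ a ∈ (⁅E, E⁆ : Subgroup G), z * a = a * z := by
    refine hAb (⁅E, E⁆ : Subgroup G) z q hq hab hnorm hzq hqA ?_
    intro a ha hap
    refine hpr (Subgroup.zpowers a) ?_ ?_ a (Subgroup.mem_zpowers a)
    · exact Subgroup.zpowers_le.mpr ha
    · rw [Nat.card_zpowers]; exact hap
  intro e he
  have huA : e * z * e⁻¹ * z⁻¹ ∈ (⁅E, E⁆ : Subgroup G) :=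
    Subgroup.commutator_mem_commutator he hzE
  have huz : z * (e * z * e⁻¹ * z⁻¹) = (e * z * e⁻¹ * z⁻¹) * z := hcen _ huA
  have hezq : (e * z * e⁻¹) ^ q = 1 := by
    rw [conj_pow, hzq, mul_one, mul_inv_cancel]
  have heq : e * z * e⁻¹ = (e * z * e⁻¹ * z⁻¹) * z := by group
  have huq : (e * z * e⁻¹ * z⁻¹) ^ q = 1 := by
    have h1 : ((e * z * e⁻¹ * z⁻¹) * z) ^ q = (e * z * e⁻¹ * z⁻¹) ^ q * z ^ q :=
      Commute.mul_pow (show Commute (e * z * e⁻¹ * z⁻¹) z from huz.symm) q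
    rw [heq, h1, hzq, mul_one] at hezq
    exact hezq
  have hu1 : e * z * e⁻¹ * z⁻¹ = 1 := by
    by_contra hne
    have hord : orderOf (e * z * e⁻¹ * z⁻¹) = q := by
      have : Fact q.Prime := ⟨hq⟩
      exact orderOf_eq_prime huq hne
    apply hqA
    have h2 : orderOf (⟨e * z * e⁻¹ * z⁻¹, huA⟩ : (⁅E, E⁆ : Subgroup G)) ∣
        Nat.card (⁅E, E⁆ : Subgroup G) := orderOf_dvd_natCard _
    rwa [Subgroup.orderOf_mk, hord] at h2
  have h3 : e * z * e⁻¹ = z := mul_inv_eq_one.mp hu1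
  have h4 : e * z = z * e := mul_inv_eq_iff_eq_mul.mp h3
  exact h4.symm

end Cfsg.Agent.Lib.Helper89.S51ZCENCore
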